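import Cfsg.Agent.SympGeo.LagrangianPair

/-! The stabiliser of a pair of complementary Lagrangian planes is maximal in `Sp₄(q)` for odd `q ≥ 5`. -/

set_option autoImplicit false
set_option linter.unusedSectionVars false

namespace CfsgLib.SpFour90

open Matrix Module CfsgLib.TransvGL CfsgLib.AltFormTransv CfsgLib.SympGeo
open scoped MatrixGroups

variable {ι : Type} [Fintype ι] [DecidableEq ι] {F : Type*} [Field F]
variable {f : (ι → F) → (ι → F) → F} (hf : Cfsg.Geo.IsSymplecticForm f)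

/-- A pair of complementary Lagrangian planes. -/
structure PlanePair (U W : Submodule F (ι → F)) : Prop where
  dimU : finrank F U = 2
  dimW : finrank F W = 2
  left : (sform hf).orthogonal U = U
  right : (sform hf).orthogonal W = W
  top : U ⊔ W = ⊤
  inf : ∀ x ∈ U, x ∈ W → x = 0

variable {hf}
variable {U W : Submodule F (ι → F)}

namespace PlanePair

lemma symm (h : PlanePair hf U W) : PlanePair hf W U :=
  ⟨h.dimW, h.dimU, h.right, h.left, by rw [sup_comm, h.top], fun x hx hx' => h.inf x hx' hx⟩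

lemma left_zero (h : PlanePair hf U W) {x y : ι → F} (hx : x ∈ U) (hy : y ∈ U) : sform hf x y = 0 := by
  rw [← h.left] at hy
  exact hy x hx

lemma right_zero (h : PlanePair hf U W) {x y : ι → F} (hx : x ∈ W) (hy : y ∈ W) : sform hf x y = 0 :=
  h.symm.left_zero hx hy

lemma exists_dual (h : PlanePair hf U W) {v p : ι → F} (hv : v ∈ U) (hp : p ∈ U)
    (hn : v ∉ Submodule.span F {p}) : ∃ d ∈ W, sform hf p d = 0 ∧ sform hf v d = 1 := by
  obtain ⟨d, hdW, hdP, hd⟩ := exists_sform_one hf (S := W) (T := Submodule.span F {p}) (v := v) (by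
    rw [h.right]
    intro hm
    obtain ⟨t, ht, w, hw, e⟩ := Submodule.mem_sup.1 hm
    have htU : t ∈ U := (Submodule.span_singleton_le_iff_mem _ _).2 hp ht
    have hw0 : w = 0 := h.inf w (by rw [eq_sub_of_add_eq' e]; exact U.sub_mem hv htU) hw
    rw [hw0, add_zero] at e
    exact hn (e ▸ ht))
  exact ⟨d, hdW, hdP p (Submodule.mem_span_singleton_self _), hd⟩

lemma exists_dual_one (h : PlanePair hf U W) {v : ι → F} (hv : v ∈ U) (hv0 : v ≠ 0) :
    ∃ d ∈ W, sform hf v d = 1 := by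
  obtain ⟨d, hd, -, h1⟩ := h.exists_dual hv U.zero_mem (by simpa using hv0)
  exact ⟨d, hd, h1⟩

lemma span_pair (h : PlanePair hf U W) {u v : ι → F} (hu : u ∈ U) (hv : v ∈ U) (hu0 : u ≠ 0)
    (hn : v ∉ Submodule.span F {u}) : ∀ z ∈ U, ∃ r s : F, r • u + s • v = z := by
  intro z hz
  have hle : Submodule.span F {u} ⊔ Submodule.span F {v} ≤ U :=
    sup_le ((Submodule.span_singleton_le_iff_mem _ _).2 hu) ((Submodule.span_singleton_le_iff_mem _ _).2 hv)
  have hlt : finrank F (Submodule.span F {u}) < finrank F ↥(Submodule.span F {u} ⊔ Submodule.span F {v}) :=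
    Submodule.finrank_lt_finrank_of_lt (lt_of_le_not_ge le_sup_left fun hle' =>
      hn (hle' (Submodule.mem_sup_right (Submodule.mem_span_singleton_self v))))
  rw [finrank_span_singleton hu0] at hlt
  have := Submodule.eq_of_le_of_finrank_le hle (by rw [h.dimU]; omega)
  rw [← this] at hz
  obtain ⟨_, ha, _, hb, rfl⟩ := Submodule.mem_sup.1 hz
  obtain ⟨r, rfl⟩ := Submodule.mem_span_singleton.1 ha
  obtain ⟨s, rfl⟩ := Submodule.mem_span_singleton.1 hb
  exact ⟨r, s, rfl⟩

/-- In a plane the vectors orthogonal to a non-zero vector of the other plane form a line. -/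
lemma mem_line (h : PlanePair hf U W) {u z w : ι → F} (hu : u ∈ U) (hu0 : u ≠ 0) (hz : z ∈ U) (hw : w ∈ W)
    (hw0 : w ≠ 0) (huw : sform hf u w = 0) (hzw : sform hf z w = 0) : z ∈ Submodule.span F {u} := by
  by_contra hn
  refine hw0 (h.inf w ?_ hw)
  rw [← h.left]
  intro x hx
  obtain ⟨r, s, rfl⟩ := h.span_pair hu hz hu0 hn x hx
  show sform hf _ w = 0
  rw [map_add, LinearMap.add_apply, map_smul, map_smul, LinearMap.smul_apply, LinearMap.smul_apply, huw, hzw]
  simp

lemma exists_swap (h : PlanePair hf U W) : ∃ s : GL ι F,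
    (∀ x y, f ((s : Matrix ι ι F) *ᵥ x) ((s : Matrix ι ι F) *ᵥ y) = f x y) ∧
    (∀ x ∈ U, (s : Matrix ι ι F) *ᵥ x ∈ W) ∧ (∀ x ∈ W, (s : Matrix ι ι F) *ᵥ x ∈ U) := by
  obtain ⟨e, he, he0⟩ := Submodule.exists_mem_ne_zero_of_ne_bot (p := U) (by
    intro h0; have := h.dimU; rw [h0, finrank_bot] at this; omega)
  obtain ⟨v, hv, hvn⟩ := exists_avoid (T := U) (P := Submodule.span F {e}) (by
    rw [h.dimU, finrank_span_singleton he0]; norm_num)
  obtain ⟨φ, hφ, hvφ, heφ⟩ := h.exists_dual he hv (fun hm => by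
    obtain ⟨r, hr⟩ := Submodule.mem_span_singleton.1 hm
    have hr0 : r ≠ 0 := fun h0 => he0 (by rw [← hr, h0, zero_smul])
    exact hvn (Submodule.mem_span_singleton.2 ⟨r⁻¹, by rw [← hr, inv_smul_smul₀ hr0]⟩))
  obtain ⟨ψ, hψ, heψ, hvψ⟩ := h.exists_dual hv he hvn
  have k1 : sform hf φ e = -1 := by rw [sform_skew hf, heφ]
  have k2 : sform hf ψ e = 0 := sform_comm_zero hf heψ
  have k3 : sform hf φ v = 0 := sform_comm_zero hf hvφ
  have k4 : sform hf ψ v = -1 := by rw [sform_skew hf, hvψ]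
  set l : (ι → F) →ₗ[F] (ι → F) := ((sform hf).flip φ).smulRight φ + ((sform hf).flip ψ).smulRight ψ +
    (((sform hf).flip e).smulRight e + ((sform hf).flip v).smulRight v) with hl
  have hla : ∀ x, l x = sform hf x φ • φ + sform hf x ψ • ψ + (sform hf x e • e + sform hf x v • v) :=
    fun x => rfl
  have hexp : ∀ x, x = sform hf x φ • e + sform hf x ψ • v - (sform hf x e • φ + sform hf x v • ψ) := by
    intro x
    obtain ⟨p, hp, q, hq, rfl⟩ := Submodule.mem_sup.1 (h.top ▸ Submodule.mem_top : x ∈ U ⊔ W)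
    obtain ⟨r, s, rfl⟩ := h.span_pair he hv he0 hvn p hp
    obtain ⟨r', s', rfl⟩ := h.symm.span_pair hφ hψ (fun h0 => by simp [h0] at heφ) (fun hm => by
      obtain ⟨t, ht⟩ := Submodule.mem_span_singleton.1 hm
      rw [← ht, map_smul, hvφ, smul_zero] at hvψ
      exact zero_ne_one hvψ) q hq
    simp only [map_add, map_smul, LinearMap.add_apply, LinearMap.smul_apply, smul_eq_mul, sform_self hf, k1, k2, k3,
      k4, heφ, heψ, hvφ, hvψ, h.left_zero he hv, h.left_zero hv he, h.right_zero hφ hψ, h.right_zero hψ hφ]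
    module
  have hinv : ∀ x, l (l x) = -x := fun x => by
    conv_rhs => rw [hexp x]
    simp only [hla, map_add, map_smul, LinearMap.add_apply, LinearMap.smul_apply, smul_eq_mul, sform_self hf, k1, k2,
      k3, k4, heφ, heψ, hvφ, hvψ, h.left_zero he hv, h.left_zero hv he, h.right_zero hφ hψ, h.right_zero hψ hφ]
    module
  set E : (ι → F) ≃ₗ[F] (ι → F) := LinearEquiv.ofLinear l (-l)
    (LinearMap.ext fun x => by simp [hinv]) (LinearMap.ext fun x => by simp [hinv])
  refine ⟨ofEquiv E, fun x y => ?_, fun x hx => ?_, fun x hx => ?_⟩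
  · rw [ofEquiv_mulVec, ofEquiv_mulVec]
    show sform hf (l x) (l y) = sform hf x y
    conv_rhs => rw [hexp x, hexp y]
    simp only [hla, map_add, map_sub, map_smul, LinearMap.add_apply, LinearMap.sub_apply, LinearMap.smul_apply,
      smul_eq_mul, sform_self hf, k1, k2,
      k3, k4, heφ, heψ, hvφ, hvψ, h.left_zero he hv, h.left_zero hv he, h.right_zero hφ hψ, h.right_zero hψ hφ]
    ring
  · rw [ofEquiv_mulVec]
    show l x ∈ W
    rw [hla, h.left_zero hx he, h.left_zero hx hv, zero_smul, zero_smul, add_zero, add_zero]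
    exact W.add_mem (W.smul_mem _ hφ) (W.smul_mem _ hψ)
  · rw [ofEquiv_mulVec]
    show l x ∈ U
    rw [hla, h.right_zero hx hφ, h.right_zero hx hψ, zero_smul, zero_smul, add_zero, zero_add]
    exact U.add_mem (U.smul_mem _ he) (U.smul_mem _ hv)

end PlanePair

section OverGroup

variable {H : Subgroup (GL ι F)}

/-- The elements of the stabiliser used: root elements and tori. -/
structure Over (hf : Cfsg.Geo.IsSymplecticForm f) (U W : Submodule F (ι → F)) (H : Subgroup (GL ι F)) : Prop where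
  pres : ∀ g ∈ H, ∀ x y, f ((g : Matrix ι ι F) *ᵥ x) ((g : Matrix ι ι F) *ᵥ y) = f x y
  root : ∀ u ∈ U, ∀ w ∈ W, sform hf u w = 0 → biT hf u w ∈ H
  torus : ∀ e ∈ U, ∀ φ ∈ W, sform hf e φ = 1 → ∀ t : F, t ≠ 0 → ∃ g ∈ H, ∀ x,
    (g : Matrix ι ι F) *ᵥ x = x + ((t - 1) * sform hf x φ) • e - ((t⁻¹ - 1) * sform hf x e) • φ

lemma Over.symm (O : Over hf U W H) : Over hf W U H :=
  ⟨O.pres, fun w hw u hu h => by rw [biT_comm hf h]; exact O.root u hu w hw (sform_comm_zero hf h),
    fun e he φ hφ h t ht => by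
      obtain ⟨g, hg, hgx⟩ := O.torus φ hφ (-e) (W.neg_mem he) (by rw [map_neg, sform_skew hf, h, neg_neg]) t⁻¹
        (inv_ne_zero ht)
      refine ⟨g, hg, fun x => ?_⟩
      rw [hgx, inv_inv, map_neg]
      module⟩

/-- A transvection lies in the group. -/
def HasT (hf : Cfsg.Geo.IsSymplecticForm f) (H : Subgroup (GL ι F)) : Prop :=
  ∃ v, v ≠ 0 ∧ ∃ c : F, c ≠ 0 ∧ sympT hf v c ∈ H

/-- The commutator of two root elements at one vector. -/
lemma heis (O : Over hf U W H) (h2 : (2 : F) ≠ 0) {b a : ι → F} (hb0 : b ≠ 0) (hab : sform hf b a = 0)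
    (hx : biT hf b a ∈ H) {g : GL ι F} (hg : g ∈ H) (hgb : (g : Matrix ι ι F) *ᵥ b = b)
    (hne : sform hf ((g : Matrix ι ι F) *ᵥ a) a ≠ 0) : HasT hf H := by
  set a' := (g : Matrix ι ι F) *ᵥ a with ha'
  have hab' : sform hf b a' = 0 := by
    have := O.pres g hg b a
    rw [hgb] at this
    exact this.trans hab
  have hx' : biT hf b a' ∈ H := by
    have := H.mul_mem (H.mul_mem hg hx) (H.inv_mem hg)
    rwa [conj_biT hf (O.pres g hg) hab, hgb] at this
  refine ⟨b, hb0, sform hf a' a + -sform hf a a', ?_, ?_⟩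
  · rw [sform_skew hf a a', neg_neg, ← two_mul]
    exact mul_ne_zero h2 hne
  · have := H.mul_mem (H.inv_mem (H.mul_mem hx' hx)) (H.mul_mem hx hx')
    rw [biT_mul hf hab' hab, biT_mul hf hab hab', add_comm a' a] at this
    rw [← sympT_mul hf, ← sympT_inv hf]
    have hc : ∀ k, biT hf b (a + a') * sympT hf b k = sympT hf b k * biT hf b (a + a') := fun k => by
      refine ext_mulVec fun x => ?_
      have hs : sform hf b (a + a') = 0 := by rw [map_add, hab, hab', add_zero]
      rw [Units.val_mul, Units.val_mul, ← Matrix.mulVec_mulVec, ← Matrix.mulVec_mulVec, tv_mulVec hf,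
        biT_mulVec hf hs, biT_mulVec hf hs, tv_mulVec hf]
      simp only [map_add, map_smul, LinearMap.add_apply, LinearMap.smul_apply, smul_eq_mul,
        sform_comm_zero hf hab', sform_comm_zero hf hab, hab, hab', sform_self hf]
      module
    rw [_root_.mul_inv_rev, mul_assoc, inv_mul_cancel_left] at this
    have h3 : sympT hf b (sform hf a' a) * (sympT hf b (sform hf a a'))⁻¹ =
        (sympT hf b (sform hf a a'))⁻¹ * sympT hf b (sform hf a' a) := by
      rw [sympT_inv hf, sympT_mul hf, sympT_mul hf, add_comm]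
    rwa [h3]

lemma sform_move (a p q : ι → F) (r s : F) :
    sform hf (a + r • p + s • q) a = r * sform hf p a + s * sform hf q a := by
  simp only [map_add, map_smul, LinearMap.add_apply, LinearMap.smul_apply, smul_eq_mul, sform_self hf, zero_add]

lemma smul_root (O : Over hf U W H) {u w : ι → F} (hu : u ∈ U) (hw : w ∈ W) (h : sform hf u w = 0) (k : F) :
    biT hf (k • u) w ∈ H :=
  O.root _ (U.smul_mem k hu) w hw (by rw [map_smul, LinearMap.smul_apply, h, smul_zero])

/-- A root element at a vector of a plane and a mixed vector. -/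
lemma caseA (O : Over hf U W H) (P : PlanePair hf U W) (h2 : (2 : F) ≠ 0) {t : F} (ht0 : t ≠ 0) (ht : t * t ≠ 1)
    {b aU aW : ι → F} (hb : b ∈ U) (hb0 : b ≠ 0) (haU : aU ∈ U) (haW : aW ∈ W) (ha0 : aU ≠ 0) (haW0 : aW ≠ 0)
    (hab : sform hf b (aU + aW) = 0) (hx : biT hf b (aU + aW) ∈ H) : HasT hf H := by
  have hbaW : sform hf b aW = 0 := by rwa [map_add, P.left_zero hb haU, zero_add] at hab
  by_cases hd : aU ∈ Submodule.span F {b}
  · obtain ⟨k, rfl⟩ := Submodule.mem_span_singleton.1 hd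
    have hk : k ≠ 0 := fun h => ha0 (by rw [h, zero_smul])
    rw [add_comm, biT_self_smul hf hbaW, H.mul_mem_cancel_left (O.root b hb aW haW hbaW)] at hx
    exact ⟨b, hb0, 2 * k, mul_ne_zero h2 hk, hx⟩
  obtain ⟨φ, hφ, hbφ, haφ⟩ := P.exists_dual haU hb hd
  obtain ⟨g, hg, hgx⟩ := O.torus aU haU φ hφ haφ t ht0
  have hne : sform hf aW aU ≠ 0 := fun h0 => haW0 (P.inf aW (by
    rw [← P.left]
    intro x hx
    obtain ⟨r, s, rfl⟩ := P.span_pair hb haU hb0 hd x hx
    show sform hf _ aW = 0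
    rw [map_add, LinearMap.add_apply, map_smul, map_smul, LinearMap.smul_apply, LinearMap.smul_apply, hbaW,
      sform_comm_zero hf h0]
    simp) haW)
  refine heis O h2 hb0 hab hx hg ?_ ?_
  · rw [hgx, hbφ, P.left_zero hb haU]; simp
  · rw [hgx]
    simp only [map_add, map_sub, map_smul, LinearMap.add_apply, LinearMap.sub_apply, LinearMap.smul_apply,
      smul_eq_mul, sform_self hf, haφ, P.right_zero haW hφ, P.right_zero hφ haW, sform_skew hf φ aU, P.left_zero haU haU,
      sform_skew hf aU aW]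
    intro h0
    refine ht ?_
    have h1 : (t⁻¹ - t) * sform hf aW aU = 0 := by linear_combination h0
    have h3 := (mul_eq_zero.1 h1).resolve_right hne
    field_simp at h3
    linear_combination -h3

/-- A root element of a plane met by neither member. -/
lemma hasT_of_root (O : Over hf U W H) (P : PlanePair hf U W) (h2 : (2 : F) ≠ 0) {t : F} (ht0 : t ≠ 0)
    (ht : t * t ≠ 1) {aU aW bU bW : ι → F} (haU : aU ∈ U) (haW : aW ∈ W) (hbU : bU ∈ U) (hbW : bW ∈ W)
    (ha0 : aU ≠ 0) (haW0 : aW ≠ 0) (hab : sform hf (bU + bW) (aU + aW) = 0)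
    (hx : biT hf (bU + bW) (aU + aW) ∈ H) (hind : aU + aW ∉ Submodule.span F {bU + bW})
    (hb0 : bU + bW ≠ 0) : HasT hf H := by
  by_cases hbW0 : bW = 0
  · rw [hbW0, add_zero] at hab hx hb0
    exact caseA O P h2 ht0 ht hbU hb0 haU haW ha0 haW0 hab hx
  by_cases hbU0 : bU = 0
  · rw [hbU0, zero_add] at hab hx hb0
    rw [add_comm aU aW] at hab hx
    exact caseA O.symm P.symm h2 ht0 ht hbW hb0 haW haU haW0 ha0 hab hx
  have hexp : sform hf bU aW + sform hf bW aU = 0 := by
    simp only [map_add, LinearMap.add_apply, P.left_zero hbU haU, P.right_zero hbW haW] at hab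
    linear_combination hab
  by_cases hβ : sform hf bU bW = 0
  · by_cases hz : sform hf bU aW = 0
    · have hz' : sform hf bW aU = 0 := by linear_combination hexp - hz
      obtain ⟨k, rfl⟩ := Submodule.mem_span_singleton.1
        (P.mem_line hbU hbU0 haU hbW hbW0 hβ (sform_comm_zero hf hz'))
      obtain ⟨l, rfl⟩ := Submodule.mem_span_singleton.1
        (P.symm.mem_line hbW hbW0 haW hbU hbU0 (sform_comm_zero hf hβ) (sform_comm_zero hf hz))
      have hk : k ≠ 0 := fun h => ha0 (by rw [h, zero_smul])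
      have hs : sform hf ((k + l) • bU) bW = 0 := by rw [map_smul, LinearMap.smul_apply, hβ, smul_zero]
      have key : biT hf (bU + bW) (k • bU + l • bW) =
          biT hf ((k + l) • bU) bW * (sympT hf bU (2 * k) * sympT hf bW (2 * l)) := by
        refine ext_mulVec fun x => ?_
        rw [biT_mulVec hf hab, Units.val_mul, Units.val_mul, ← Matrix.mulVec_mulVec, ← Matrix.mulVec_mulVec,
          tv_mulVec hf, tv_mulVec hf, biT_mulVec hf hs]
        simp only [map_add, map_smul, LinearMap.add_apply, LinearMap.smul_apply, smul_eq_mul, hβ,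
          sform_comm_zero hf hβ, sform_self hf]
        module
      rw [key, H.mul_mem_cancel_left (smul_root O hbU hbW hβ _)] at hx
      obtain ⟨φ, hφ, hbφ⟩ := P.exists_dual_one hbU hbU0
      obtain ⟨g, hg, hgx⟩ := O.torus bU hbU φ hφ hbφ t ht0
      have hgU : (g : Matrix ι ι F) *ᵥ bU = t • bU := by
        rw [hgx, hbφ, sform_self hf]; module
      have hgW : (g : Matrix ι ι F) *ᵥ bW = bW := by
        rw [hgx, P.right_zero hbW hφ, sform_comm_zero hf hβ]; simp
      have h1 := H.mul_mem (H.mul_mem (H.mul_mem hg hx) (H.inv_mem hg)) (H.inv_mem hx)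
      rw [show g * (sympT hf bU (2 * k) * sympT hf bW (2 * l)) * g⁻¹ =
          (g * sympT hf bU (2 * k) * g⁻¹) * (g * sympT hf bW (2 * l) * g⁻¹) by group,
        conj_sympT hf (O.pres g hg), conj_sympT hf (O.pres g hg), hgU, hgW, sympT_smul hf, _root_.mul_inv_rev,
        mul_assoc, mul_inv_cancel_left, sympT_inv hf, sympT_mul hf] at h1
      refine ⟨bU, hbU0, _, ?_, h1⟩
      rw [show 2 * k * t ^ 2 + -(2 * k) = 2 * k * (t * t - 1) by ring]
      exact mul_ne_zero (mul_ne_zero h2 hk) (sub_ne_zero.2 ht)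
    · refine heis O h2 hb0 hab hx (O.root bU hbU bW hbW hβ) ?_ ?_
      · rw [biT_mulVec hf hβ]
        simp only [map_add, LinearMap.add_apply, sform_self hf, hβ, sform_comm_zero hf hβ]
        module
      · have e1 : sform hf (aU + aW) bU = -sform hf bU aW := by
          rw [map_add, LinearMap.add_apply, P.left_zero haU hbU, sform_skew hf aW bU]; ring
        have e2 : sform hf (aU + aW) bW = sform hf bU aW := by
          rw [map_add, LinearMap.add_apply, P.right_zero haW hbW, sform_skew hf aU bW]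
          linear_combination -hexp
        rw [biT_mulVec hf hβ, e1, e2, sform_move, sform_skew hf bW (aU + aW), sform_skew hf bU (aU + aW), e1, e2]
        intro h0
        exact mul_ne_zero h2 (mul_ne_zero hz hz) (by
          first | linear_combination h0 | linear_combination -h0)
  obtain ⟨u, hu, hun⟩ := exists_avoid (T := U) (P := Submodule.span F {bU}) (by
    rw [P.dimU, finrank_span_singleton hbU0]; norm_num)
  set e := u - (sform hf u bW / sform hf bU bW) • bU with he
  have heU : e ∈ U := U.sub_mem hu (U.smul_mem _ hbU)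
  have heW : sform hf e bW = 0 := by
    rw [he, map_sub, LinearMap.sub_apply, map_smul, LinearMap.smul_apply, smul_eq_mul, div_mul_cancel₀ _ hβ, sub_self]
  have hen : e ∉ Submodule.span F {bU} := fun hm => hun (by
    have := Submodule.add_mem _ hm (Submodule.smul_mem _ (sform hf u bW / sform hf bU bW)
      (Submodule.mem_span_singleton_self bU))
    rwa [he, sub_add_cancel] at this)
  obtain ⟨φ, hφ, hbφ, heφ⟩ := P.exists_dual heU hbU hen
  obtain ⟨g, hg, hgx⟩ := O.torus e heU φ hφ heφ t ht0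
  have hgb : (g : Matrix ι ι F) *ᵥ (bU + bW) = bU + bW := by
    rw [hgx, map_add, LinearMap.add_apply, LinearMap.add_apply, hbφ, P.right_zero hbW hφ, P.left_zero hbU heU,
      sform_comm_zero hf heW]
    simp
  set A := sform hf (aU + aW) φ with hA
  set C := sform hf (aU + aW) e with hC
  by_cases hAC : A * C = 0
  swap
  · refine heis O h2 hb0 hab hx hg hgb ?_
    rw [hgx, ← hA, ← hC, sub_eq_add_neg, ← neg_smul, sform_move, sform_skew hf e, sform_skew hf φ, ← hA, ← hC]
    intro h0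
    refine hAC ?_
    have h1 : (t - t⁻¹) * (A * C) = 0 := by linear_combination -h0
    refine (mul_eq_zero.1 h1).resolve_left fun h3 => ht ?_
    field_simp at h3
    linear_combination h3
  -- the second root element lies in a plane member
  set d := (g : Matrix ι ι F) *ᵥ (aU + aW) - (aU + aW) with hd
  have hdexp : d = ((t - 1) * A) • e - ((t⁻¹ - 1) * C) • φ := by rw [hd, hgx, ← hA, ← hC]; abel
  have hbd : sform hf (bU + bW) d = 0 := by
    rw [hdexp, map_add, LinearMap.add_apply, map_sub, map_sub, map_smul, map_smul, map_smul, map_smul, hbφ,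
      P.left_zero hbU heU, P.right_zero hbW hφ, sform_comm_zero hf heW]
    simp
  have hd0 : sform hf d (aU + aW) = 0 := by
    rw [hdexp, map_sub, LinearMap.sub_apply, map_smul, map_smul, LinearMap.smul_apply, LinearMap.smul_apply,
      sform_skew hf e, sform_skew hf φ, ← hA, ← hC]
    rcases mul_eq_zero.1 hAC with h | h <;> simp [h]
  have h1 := H.mul_mem (H.mul_mem hg hx) (H.inv_mem hg)
  rw [conj_biT hf (O.pres g hg) hab, hgb, show (g : Matrix ι ι F) *ᵥ (aU + aW) = aU + aW + d by rw [hd]; abel] at h1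
  have h3 := biT_mul hf (a := aU + aW) (a' := d) hab hbd
  rw [hd0, show sympT hf (bU + bW) (0 : F) = 1 from ext_mulVec fun x => by rw [sympT_mulVec]; simp, mul_one] at h3
  rw [← h3, H.mul_mem_cancel_left hx, biT_comm hf hbd] at h1
  have hAC' : A ≠ 0 ∨ C ≠ 0 := by
    by_contra hc
    push Not at hc
    have hφ0 : φ ≠ 0 := fun h => by simp [h] at heφ
    have he0 : e ≠ 0 := fun h => hen (h ▸ zero_mem _)
    obtain ⟨r, hr⟩ := Submodule.mem_span_singleton.1 (P.mem_line hbU hbU0 haU hφ hφ0 hbφ (by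
      have := hc.1
      rwa [hA, map_add, LinearMap.add_apply, P.right_zero haW hφ, add_zero] at this))
    obtain ⟨r', hr'⟩ := Submodule.mem_span_singleton.1 (P.symm.mem_line hbW hbW0 haW heU he0
      (sform_comm_zero hf heW) (by
      have := hc.2
      rwa [hC, map_add, LinearMap.add_apply, P.left_zero haU heU, zero_add] at this))
    rw [← hr, ← hr', map_smul, map_smul, sform_skew hf bW bU, smul_eq_mul, smul_eq_mul] at hexp
    have hrr : r' = r := mul_right_cancel₀ hβ (by linear_combination hexp)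
    exact hind (Submodule.mem_span_singleton.2 ⟨r, by rw [← hr, ← hr', hrr, smul_add]⟩)
  have ht1 : t - 1 ≠ 0 := sub_ne_zero.2 fun h => ht (by rw [h, mul_one])
  have ht1' : t⁻¹ - 1 ≠ 0 := sub_ne_zero.2 fun h => ht (by rw [inv_eq_one.1 h, mul_one])
  rcases mul_eq_zero.1 hAC with hA0 | hC0
  · rw [hdexp, hA0, mul_zero, zero_smul, zero_sub, ← neg_smul] at h1 hbd
    rw [add_comm bU bW] at h1 hbd
    refine caseA O.symm P.symm h2 ht0 ht (W.smul_mem _ hφ) ?_ hbW hbU hbW0 hbU0 (sform_comm_zero hf hbd) h1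
    exact smul_ne_zero (neg_ne_zero.2 (mul_ne_zero ht1' (hAC'.resolve_left (by simp [hA0]))))
      fun h => by simp [h] at heφ
  · rw [hdexp, hC0, mul_zero, zero_smul, sub_zero] at h1 hbd
    refine caseA O P h2 ht0 ht (U.smul_mem _ heU) ?_ hbU hbW hbU0 hbW0 (sform_comm_zero hf hbd) h1
    exact smul_ne_zero (mul_ne_zero ht1 (hAC'.resolve_right (by simp [hC0]))) fun h => hen (h ▸ zero_mem _)

/-- A transvection at a vector with non-zero part in the first plane gives one inside that plane. -/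
lemma plane_transv (O : Over hf U W H) (P : PlanePair hf U W) (h2 : (2 : F) ≠ 0) {t : F} (ht0 : t ≠ 0)
    (ht : t * t ≠ 1) {p q : ι → F} (hp : p ∈ U) (hq : q ∈ W) (hp0 : p ≠ 0) {c : F} (hc : c ≠ 0)
    (hx : sympT hf (p + q) c ∈ H) : ∃ u ∈ U, u ≠ 0 ∧ ∃ k : F, k ≠ 0 ∧ sympT hf u k ∈ H := by
  by_cases hq0 : q = 0
  · exact ⟨p, hp, hp0, c, hc, by rwa [hq0, add_zero] at hx⟩
  by_cases hβ : sform hf p q = 0
  · obtain ⟨φ, hφ, hpφ⟩ := P.exists_dual_one hp hp0
    obtain ⟨g, hg, hgx⟩ := O.torus p hp φ hφ hpφ t ht0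
    have hgp : (g : Matrix ι ι F) *ᵥ (p + q) = t • p + q := by
      rw [hgx, map_add, LinearMap.add_apply, LinearMap.add_apply, hpφ, sform_self hf, P.right_zero hq hφ,
        sform_comm_zero hf hβ]
      module
    have hsplit : ∀ r : F, sympT hf (r • p + q) c = biT hf ((c * r) • p) q * (sympT hf p (c * r ^ 2) * sympT hf q c) := by
      intro r
      refine ext_mulVec fun x => ?_
      have hs : sform hf ((c * r) • p) q = 0 := by rw [map_smul, LinearMap.smul_apply, hβ, smul_zero]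
      rw [Units.val_mul, Units.val_mul, ← Matrix.mulVec_mulVec, ← Matrix.mulVec_mulVec, tv_mulVec hf,
        tv_mulVec hf, tv_mulVec hf, biT_mulVec hf hs]
      simp only [map_add, map_smul, LinearMap.add_apply, LinearMap.smul_apply, smul_eq_mul, hβ,
        sform_comm_zero hf hβ, sform_self hf]
      module
    have h1 := H.mul_mem (H.mul_mem hg hx) (H.inv_mem hg)
    rw [conj_sympT hf (O.pres g hg), hgp, hsplit, H.mul_mem_cancel_left (smul_root O hp hq hβ _)] at h1
    have h0 := hx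
    rw [show p + q = (1 : F) • p + q by rw [one_smul], hsplit, H.mul_mem_cancel_left (smul_root O hp hq hβ _)] at h0
    have h3 := H.mul_mem h1 (H.inv_mem h0)
    rw [_root_.mul_inv_rev, mul_assoc, mul_inv_cancel_left, sympT_inv hf, sympT_mul hf] at h3
    refine ⟨p, hp, hp0, _, ?_, h3⟩
    rw [show c * t ^ 2 + -(c * 1 ^ 2) = c * (t * t - 1) by ring]
    exact mul_ne_zero hc (sub_ne_zero.2 ht)
  obtain ⟨u, hu, hun⟩ := exists_avoid (T := U) (P := Submodule.span F {p}) (by
    rw [P.dimU, finrank_span_singleton hp0]; norm_num)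
  set e := u - (sform hf u q / sform hf p q) • p with he
  have heU : e ∈ U := U.sub_mem hu (U.smul_mem _ hp)
  have heq : sform hf e q = 0 := by
    rw [he, map_sub, LinearMap.sub_apply, map_smul, LinearMap.smul_apply, smul_eq_mul, div_mul_cancel₀ _ hβ, sub_self]
  have hen : e ≠ 0 := fun h0 => hun (by
    rw [sub_eq_zero.1 (he ▸ h0 : u - _ = 0)]
    exact Submodule.smul_mem _ _ (Submodule.mem_span_singleton_self p))
  set n := biT hf e q with hn
  have hnH : n ∈ H := O.root e heU q hq heq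
  set d := sform hf p q • e with hd
  have hnv : (n : Matrix ι ι F) *ᵥ (p + q) = p + q + d := by
    rw [hn, biT_mulVec hf heq, hd]
    simp only [map_add, LinearMap.add_apply, P.left_zero hp heU, sform_comm_zero hf heq, sform_self hf]
    module
  have hnd : (n : Matrix ι ι F) *ᵥ d = d := by
    rw [hn, biT_mulVec hf heq, hd]
    simp only [map_smul, LinearMap.smul_apply, heq, sform_self hf]
    simp
  have hninv : ((n⁻¹ : GL ι F) : Matrix ι ι F) *ᵥ (p + q) = p + q - d := by
    conv_lhs => rw [show p + q = (n : Matrix ι ι F) *ᵥ (p + q - d) by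
      rw [Matrix.mulVec_sub, hnv, hnd, add_sub_cancel_right]]
    rw [inv_mulVec_mulVec]
  have hplus := H.mul_mem (H.mul_mem hnH hx) (H.inv_mem hnH)
  rw [conj_sympT hf (O.pres _ hnH), hnv] at hplus
  have hminus := H.mul_mem (H.mul_mem (H.inv_mem hnH) hx) (H.inv_mem (H.inv_mem hnH))
  rw [conj_sympT hf (O.pres _ (H.inv_mem hnH)), hninv] at hminus
  have hm2 : sympT hf (p + q) (-2 * c) ∈ H := by
    rw [show -2 * c = -(c + c) by ring, ← sympT_inv hf, ← sympT_mul hf]
    exact H.inv_mem (H.mul_mem hx hx)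
  have hvd : sform hf (p + q) d = 0 := by
    rw [hd, map_add, LinearMap.add_apply, map_smul, map_smul, P.left_zero hp heU, sform_comm_zero hf heq]
    simp
  refine ⟨d, U.smul_mem _ heU, smul_ne_zero hβ hen, 2 * c, mul_ne_zero h2 hc, ?_⟩
  rw [← sympT_polar hf _ _ hvd]
  exact H.mul_mem (H.mul_mem hplus hminus) hm2

/-- One transvection in a plane gives all of them. -/
lemma plane_spread (O : Over hf U W H) (P : PlanePair hf U W) (h2 : (2 : F) ≠ 0) {u₀ : ι → F} (hu₀ : u₀ ∈ U)
    (hu₀0 : u₀ ≠ 0) {k : F} (hk : k ≠ 0) (hx : sympT hf u₀ k ∈ H) : ∀ u ∈ U, ∀ s : F, sympT hf u s ∈ H := by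
  have move : ∀ p q : ι → F, p ∈ U → q ∈ U → q ∉ Submodule.span F {p} → sympT hf p k ∈ H → p ≠ 0 →
      sympT hf q k ∈ H := by
    intro p q hp hq hqp hmem hp0
    obtain ⟨d, hd, hqd, hpd⟩ := P.exists_dual hp (U.sub_mem hq hp) (fun hm => by
      obtain ⟨r, hr⟩ := Submodule.mem_span_singleton.1 hm
      have hr0 : r ≠ 0 := by rintro rfl; exact hp0 (by rw [← hr, zero_smul])
      refine hqp ((Submodule.smul_mem_iff _ hr0).1 ?_)
      rw [show r • q = r • (q - p) + r • p by module, hr]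
      exact Submodule.add_mem _ (Submodule.mem_span_singleton_self _) (Submodule.smul_mem _ r (Submodule.mem_span_singleton_self _)))
    have hg := O.root (q - p) (U.sub_mem hq hp) d hd hqd
    have hgp : (biT hf (q - p) d : Matrix ι ι F) *ᵥ p = q := by
      rw [biT_mulVec hf hqd, hpd, P.left_zero hp (U.sub_mem hq hp)]; simp
    have h1 := H.mul_mem (H.mul_mem hg hmem) (H.inv_mem hg)
    rwa [conj_sympT hf (O.pres _ hg), hgp] at h1
  have hall : ∀ u ∈ U, sympT hf u k ∈ H := by
    intro u hu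
    by_cases hu0 : u = 0
    · rw [show sympT hf u k = 1 from ext_mulVec fun x => by rw [sympT_mulVec, hu0]; simp]
      exact H.one_mem
    by_cases huc : u ∈ Submodule.span F {u₀}
    · obtain ⟨e, heU, heN⟩ := exists_avoid (T := U) (P := Submodule.span F {u₀}) (by
        rw [P.dimU, finrank_span_singleton hu₀0]; norm_num)
      have he0 : e ≠ 0 := fun h0 => heN (h0 ▸ zero_mem _)
      refine move e u heU hu (fun hm => ?_) (move u₀ e hu₀ heU heN hx hu₀0) he0
      obtain ⟨r, hr⟩ := Submodule.mem_span_singleton.1 hm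
      have hr0 : r ≠ 0 := by rintro rfl; exact hu0 (by rw [← hr, zero_smul])
      exact heN ((Submodule.smul_mem_iff _ hr0).1 (hr.symm ▸ huc))
    · exact move u₀ u hu₀ hu huc hx hu₀0
  intro u hu s
  set r := s / k with hr
  have h1 := hall (((r + 1) / 2) • u) (U.smul_mem _ hu)
  have h1' := hall (((r - 1) / 2) • u) (U.smul_mem _ hu)
  rw [sympT_smul hf] at h1 h1'
  have h3 := H.mul_mem h1 (H.inv_mem h1')
  rw [sympT_inv hf, sympT_mul hf] at h3
  rwa [show k * ((r + 1) / 2) ^ 2 + -(k * ((r - 1) / 2) ^ 2) = s by rw [hr]; field_simp; ring] at h3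

end OverGroup

/-- The stabiliser of a pair of Lagrangian planes is maximal in odd characteristic from five elements on. -/
theorem planePair_isMaximal (h2 : (2 : F) ≠ 0) {t : F} (ht0 : t ≠ 0) (ht : t * t ≠ 1) (h : PlanePair hf U W)
    (G P : Subgroup (GL ι F))
    (hG : ∀ g, g ∈ G ↔ ∀ x y, f ((g : Matrix ι ι F) *ᵥ x) ((g : Matrix ι ι F) *ᵥ y) = f x y)
    (hP : ∀ g, g ∈ P ↔ g ∈ G ∧
      ((∀ x ∈ U, (g : Matrix ι ι F) *ᵥ x ∈ U) ∧ (∀ x ∈ W, (g : Matrix ι ι F) *ᵥ x ∈ W) ∨
       (∀ x ∈ U, (g : Matrix ι ι F) *ᵥ x ∈ W) ∧ (∀ x ∈ W, (g : Matrix ι ι F) *ᵥ x ∈ U))) :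
    Cfsg.Geo.IsMaximalIn G P := by
  have hsplit : ∀ v : ι → F, ∃ p ∈ U, ∃ q ∈ W, p + q = v := fun v =>
    Submodule.mem_sup.1 (h.top ▸ Submodule.mem_top)
  have hne : U ≠ ⊥ := fun h0 => by have := h.dimU; rw [h0, finrank_bot] at this; omega
  obtain ⟨u₁, hu₁, hu₁0⟩ := Submodule.exists_mem_ne_zero_of_ne_bot hne
  refine ⟨lt_of_le_not_ge (fun g hg => ((hP g).1 hg).1) fun hle => ?_, fun M hPM hMG => ?_⟩
  · obtain ⟨x, hxW, hux⟩ := h.exists_dual_one hu₁ hu₁0
    obtain ⟨-, hfix⟩ := (hP _).1 (hle ((hG _).2 (sympT_preserves hf u₁ 1)))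
    rcases hfix with ⟨-, h1⟩ | ⟨h1, -⟩
    · have h3 := W.sub_mem (h1 x hxW) hxW
      rw [sympT_mulVec, add_sub_cancel_left] at h3
      have hxu : f x u₁ = -1 := by rw [← sform_apply hf, sform_skew hf, hux]
      rw [hxu, one_mul, neg_smul, one_smul] at h3
      exact hu₁0 (h.inf u₁ hu₁ (by simpa using W.neg_mem h3))
    · have h3 := h1 u₁ hu₁
      rw [sympT_mulVec, hf.alternating, mul_zero, zero_smul, add_zero] at h3
      exact hu₁0 (h.inf u₁ hu₁ h3)
  by_cases hMP : M ≤ P
  · exact Or.inl (le_antisymm hMP hPM)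
  refine Or.inr (le_antisymm hMG ?_)
  have hMI : ∀ g ∈ M, ∀ x y, f ((g : Matrix ι ι F) *ᵥ x) ((g : Matrix ι ι F) *ᵥ y) = f x y :=
    fun g hg => (hG g).1 (hMG hg)
  have O : Over hf U W M := by
    refine ⟨hMI, fun u hu w hw huw => hPM ((hP _).2 ⟨(hG _).2 (biT_preserves hf u w),
      Or.inl ⟨fun x hx => ?_, fun x hx => ?_⟩⟩), fun e he φ hφ h1 a ha => ?_⟩
    · rw [biT_mulVec hf huw, h.left_zero hx hu, zero_smul, add_zero]
      exact U.add_mem hx (U.smul_mem _ hu)
    · rw [biT_mulVec hf huw, h.right_zero hx hw, zero_smul, add_zero]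
      exact W.add_mem hx (W.smul_mem _ hw)
    let l : F → ((ι → F) →ₗ[F] (ι → F)) := fun a => LinearMap.id +
      ((a - 1) • (sform hf).flip φ).smulRight e - ((a⁻¹ - 1) • (sform hf).flip e).smulRight φ
    have hla : ∀ a x, l a x = x + ((a - 1) * sform hf x φ) • e - ((a⁻¹ - 1) * sform hf x e) • φ :=
      fun a x => rfl
    have h1' : sform hf φ e = -1 := by rw [sform_skew hf, h1]
    have hinv : ∀ a : F, a ≠ 0 → ∀ x, l a (l a⁻¹ x) = x := fun a ha x => by
      simp only [hla, inv_inv, map_add, map_sub, map_smul, LinearMap.add_apply, LinearMap.sub_apply,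
        LinearMap.smul_apply, smul_eq_mul, sform_self hf, h1, h1']
      match_scalars <;> field_simp <;> ring
    refine ⟨ofEquiv (LinearEquiv.ofLinear (l a) (l a⁻¹) (LinearMap.ext fun x => hinv a ha x)
      (LinearMap.ext fun x => by simpa using hinv a⁻¹ (inv_ne_zero ha) x)),
      hPM ((hP _).2 ⟨(hG _).2 fun x y => ?_, Or.inl ⟨fun x hx => ?_, fun x hx => ?_⟩⟩),
      fun x => (ofEquiv_mulVec _ x).trans (hla a x)⟩ <;> rw [ofEquiv_mulVec]
    · rw [ofEquiv_mulVec]
      change sform hf (l a x) (l a y) = sform hf x y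
      simp only [hla, map_add, map_sub, map_smul, LinearMap.add_apply, LinearMap.sub_apply, LinearMap.smul_apply,
        smul_eq_mul, sform_self hf, h1, h1', sform_skew hf φ y, sform_skew hf e y]
      field_simp
      ring
    · change l a x ∈ U
      rw [hla, h.left_zero hx he, mul_zero, zero_smul, sub_zero]
      exact U.add_mem hx (U.smul_mem _ he)
    · change l a x ∈ W
      rw [hla, h.right_zero hx hφ, mul_zero, zero_smul, add_zero]
      exact W.sub_mem hx (W.smul_mem _ hφ)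
  obtain ⟨g, hgM, hgP⟩ := SetLike.not_le_iff_exists.1 hMP
  have hgI := hMI g hgM
  have hsrc : HasT hf M := by
    by_contra hnone
    have hhalf : ∀ X Y : Submodule F (ι → F), PlanePair hf X Y →
        (∀ x ∈ X, ∀ y ∈ Y, sform hf x y = 0 → biT hf x y ∈ M) →
        ∀ x ∈ X, (g : Matrix ι ι F) *ᵥ x ∈ U ∨ (g : Matrix ι ι F) *ᵥ x ∈ W := by
      intro X Y hXY hmem x hx
      obtain ⟨p, hp, q, hq, hpq⟩ := hsplit ((g : Matrix ι ι F) *ᵥ x)
      by_contra hc
      push Not at hc
      have hp0 : p ≠ 0 := by rintro rfl; rw [zero_add] at hpq; exact hc.2 (hpq ▸ hq)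
      have hq0 : q ≠ 0 := by rintro rfl; rw [add_zero] at hpq; exact hc.1 (hpq ▸ hp)
      have hx0 : x ≠ 0 := fun h0 => hc.1 (by rw [h0, Matrix.mulVec_zero]; exact U.zero_mem)
      obtain ⟨x', hx', hx'n⟩ := exists_avoid (T := X) (P := Submodule.span F {x}) (by
        rw [hXY.dimU, finrank_span_singleton hx0]; norm_num)
      obtain ⟨y, hyY, hxy, hy1⟩ := hXY.exists_dual hx' hx hx'n
      have hy0 : y ≠ 0 := fun h0 => by simp [h0] at hy1
      obtain ⟨p', hp', q', hq', hpq'⟩ := hsplit ((g : Matrix ι ι F) *ᵥ y)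
      have h1 := M.mul_mem (M.mul_mem hgM (hmem x hx y hyY hxy)) (M.inv_mem hgM)
      rw [conj_biT hf hgI hxy, ← hpq, ← hpq', biT_comm hf (by
        rw [hpq, hpq']; exact (hgI x y).trans hxy)] at h1
      have h0 : sform hf (p' + q') (p + q) = 0 := sform_comm_zero hf (by
        rw [hpq, hpq']; exact (hgI x y).trans hxy)
      refine hnone (hasT_of_root O h h2 ht0 ht hp hq hp' hq' hp0 hq0 h0 h1 ?_ ?_)
      · rw [hpq, hpq']
        intro hm
        obtain ⟨r, hr⟩ := Submodule.mem_span_singleton.1 hm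
        rw [← Matrix.mulVec_smul] at hr
        have h3 := congrArg (((g⁻¹ : GL ι F) : Matrix ι ι F) *ᵥ ·) hr
        simp only [inv_mulVec_mulVec] at h3
        exact hx0 (hXY.inf x hx (h3 ▸ Y.smul_mem r hyY))
      · rw [hpq']
        exact fun h0 => hy0 (by rw [← inv_mulVec_mulVec g y, h0, Matrix.mulVec_zero])
    have hwhole : ∀ X : Submodule F (ι → F), (∀ x ∈ X, (g : Matrix ι ι F) *ᵥ x ∈ U ∨ (g : Matrix ι ι F) *ᵥ x ∈ W) →
        (∀ x ∈ X, (g : Matrix ι ι F) *ᵥ x ∈ U) ∨ (∀ x ∈ X, (g : Matrix ι ι F) *ᵥ x ∈ W) := by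
      intro X hX
      by_contra hc
      push Not at hc
      obtain ⟨⟨x, hx, hxU⟩, ⟨y, hy, hyW⟩⟩ := hc
      have hxW := (hX x hx).resolve_left hxU
      have hyU := (hX y hy).resolve_right hyW
      rcases hX (x + y) (X.add_mem hx hy) with h' | h' <;> rw [Matrix.mulVec_add] at h'
      · exact hxU (by simpa using U.sub_mem h' hyU)
      · exact hyW (by simpa using W.sub_mem h' hxW)
    have hboth : ∀ X Y : Submodule F (ι → F), PlanePair hf X Y →
        ¬ ((∀ x ∈ U, (g : Matrix ι ι F) *ᵥ x ∈ X) ∧ (∀ x ∈ W, (g : Matrix ι ι F) *ᵥ x ∈ X)) := by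
      rintro X Y hXY ⟨h1, h3⟩
      obtain ⟨y, hy, hy0⟩ := Submodule.exists_mem_ne_zero_of_ne_bot (p := Y) (fun h0 => by
        have := hXY.dimW; rw [h0, finrank_bot] at this; omega)
      obtain ⟨p, hp, q, hq, hpq⟩ := hsplit (((g⁻¹ : GL ι F) : Matrix ι ι F) *ᵥ y)
      refine hy0 (hXY.inf y ?_ hy)
      rw [← mulVec_inv_mulVec g y, ← hpq, Matrix.mulVec_add]
      exact X.add_mem (h1 p hp) (h3 q hq)
    refine hgP ((hP g).2 ⟨hMG hgM, ?_⟩)
    rcases hwhole U (hhalf U W h O.root) with h1 | h1 <;>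
      rcases hwhole W (hhalf W U h.symm O.symm.root) with h3 | h3
    · exact absurd ⟨h1, h3⟩ (hboth U W h)
    · exact Or.inl ⟨h1, h3⟩
    · exact Or.inr ⟨h1, h3⟩
    · exact absurd ⟨h1, h3⟩ (hboth W U h.symm)
  obtain ⟨s, hsI, hsU, hsW⟩ := h.exists_swap
  have hsM : s ∈ M := hPM ((hP s).2 ⟨(hG s).2 hsI, Or.inr ⟨hsU, hsW⟩⟩)
  have transport : ∀ X Y : Submodule F (ι → F), (∀ y ∈ Y, (s : Matrix ι ι F) *ᵥ y ∈ X) →
      (∀ x ∈ X, ∀ k : F, sympT hf x k ∈ M) → ∀ y ∈ Y, ∀ k : F, sympT hf y k ∈ M := by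
    intro X Y hYX hX y hy k
    have h1 := M.mul_mem (M.mul_mem (M.inv_mem hsM) (hX _ (hYX y hy) k)) (M.inv_mem (M.inv_mem hsM))
    rwa [conj_sympT hf (hMI _ (M.inv_mem hsM)), inv_mulVec_mulVec] at h1
  obtain ⟨v, hv0, c, hc, hv⟩ := hsrc
  obtain ⟨p, hp, q, hq, rfl⟩ := hsplit v
  obtain ⟨hUall, hWall⟩ : (∀ x ∈ U, ∀ k : F, sympT hf x k ∈ M) ∧ (∀ x ∈ W, ∀ k : F, sympT hf x k ∈ M) := by
    by_cases hp0 : p = 0
    · have hq0 : q ≠ 0 := by rintro rfl; exact hv0 (by rw [hp0, add_zero])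
      obtain ⟨u, hu, hu0, k, hk, hk'⟩ := plane_transv O.symm h.symm h2 ht0 ht hq hp hq0 hc (by rwa [add_comm q p])
      have := plane_spread O.symm h.symm h2 hu hu0 hk hk'
      exact ⟨transport W U hsU this, this⟩
    · obtain ⟨u, hu, hu0, k, hk, hk'⟩ := plane_transv O h h2 ht0 ht hp hq hp0 hc hv
      have := plane_spread O h h2 hu hu0 hk hk'
      exact ⟨this, transport U W hsW this⟩
  have hne' : ∀ p ∈ U, ∀ q ∈ W, sform hf q p ≠ 0 → ∀ k : F, sympT hf (p + q) k ∈ M := by
    intro p hp q hq hpq k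
    have hg' := hUall p hp (sform hf q p)⁻¹
    have h1 := M.mul_mem (M.mul_mem hg' (hWall q hq k)) (M.inv_mem hg')
    rwa [conj_sympT hf (hMI _ hg'), tv_mulVec hf, inv_mul_cancel₀ hpq, one_smul, add_comm q p] at h1
  have hall : ∀ v k, sympT hf v k ∈ M := by
    intro v k
    obtain ⟨p, hp, q, hq, rfl⟩ := hsplit v
    by_cases hq0 : q = 0
    · rw [hq0, add_zero]; exact hUall p hp k
    by_cases hpq : sform hf q p = 0
    swap
    · exact hne' p hp q hq hpq k
    obtain ⟨u, huU, hqu⟩ := h.symm.exists_dual_one hq hq0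
    have hg' := hUall u huU 1
    have h1 := M.mul_mem (M.mul_mem hg' (hne' (p - u) (U.sub_mem hp huU) q hq (by
      rw [map_sub, hpq, hqu, zero_sub]; exact neg_ne_zero.2 one_ne_zero) k)) (M.inv_mem hg')
    rw [conj_sympT hf (hMI _ hg'), tv_mulVec hf, map_add, LinearMap.add_apply,
      h.left_zero (U.sub_mem hp huU) huU, hqu, zero_add, mul_one, one_smul] at h1
    rwa [show p - u + q + u = p + q by abel] at h1
  exact fun x hx => mem_of_preserves hf M hall x ((hG x).1 hx)

end CfsgLib.SpFour90
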