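import Cfsg.Agent.SympGeo.UnitarySix

/-!
The normaliser of a quadratic extension field with non-trivial adjoint is maximal in `Sp₄(q)` for odd `q ≥ 5`.
-/

set_option autoImplicit false
set_option linter.unusedSectionVars false
set_option linter.style.longLine false

namespace CfsgLib.SpFour90.Overfield

open Cfsg.Geo Module CfsgLib.TransvGL CfsgLib.AltFormTransv CfsgLib.OrthGeo CfsgLib.SympGeo
open scoped Matrix MatrixGroups

variable {ι : Type} [Fintype ι] [DecidableEq ι] {F : Type*} [Field F] [Finite F]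
variable {f : (ι → F) → (ι → F) → F} {hf : Cfsg.Geo.IsSymplecticForm f} {J : Matrix ι ι F} {δ : F}
variable (hS : KSymp hf J δ)
include hS

/-- A rotation of the `K`-line of an anisotropic vector by an element of norm one. -/
lemma exists_rot {b : ι → F} (hb : qJform f J b ≠ 0) {s t : F} (hst : s * s - δ * (t * t) = 1) :
    ∃ g : GL ι F, (∀ x y, f ((g : Matrix ι ι F) *ᵥ x) ((g : Matrix ι ι F) *ᵥ y) = f x y) ∧
      (g : Matrix ι ι F) * J = J * (g : Matrix ι ι F) ∧
      ∀ x, (g : Matrix ι ι F) *ᵥ x =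
        x + ((s - 1) * (sform hf x (J *ᵥ b) / qJform f J b) - t * δ * (sform hf x b / qJform f J b)) • b +
          (t * (sform hf x (J *ᵥ b) / qJform f J b) - (s - 1) * (sform hf x b / qJform f J b)) • (J *ᵥ b) := by
  set μ := qJform f J b with hμ
  have hb1 : sform hf b (J *ᵥ b) = μ := rfl
  have hb2 : sform hf (J *ᵥ b) b = -μ := by rw [sform_skew hf, hb1]
  let l : F → (ι → F) →ₗ[F] (ι → F) := fun t => LinearMap.id +
    (((s - 1) / μ) • (sform hf).flip (J *ᵥ b) - (t * δ / μ) • (sform hf).flip b).smulRight b +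
    ((t / μ) • (sform hf).flip (J *ᵥ b) - ((s - 1) / μ) • (sform hf).flip b).smulRight (J *ᵥ b)
  have hla : ∀ t x, l t x = x + ((s - 1) * (sform hf x (J *ᵥ b) / μ) - t * δ * (sform hf x b / μ)) • b +
      (t * (sform hf x (J *ᵥ b) / μ) - (s - 1) * (sform hf x b / μ)) • (J *ᵥ b) := fun t x => by
    show x + (((s - 1) / μ) * sform hf x (J *ᵥ b) - (t * δ / μ) * sform hf x b) • b +
      ((t / μ) * sform hf x (J *ᵥ b) - ((s - 1) / μ) * sform hf x b) • (J *ᵥ b) = _
    match_scalars <;> ring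
  have hinv : ∀ t, s * s - δ * (t * t) = 1 → ∀ x, l t (l (-t) x) = x := fun t hst x => by
    simp only [hla, map_add, map_sub, map_smul, LinearMap.add_apply, LinearMap.sub_apply, LinearMap.smul_apply,
      smul_eq_mul, sform_self hf, hb1, hb2]
    match_scalars
    · field_simp
    · field_simp
      linear_combination (μ * sform hf x (J *ᵥ b)) * hst
    · field_simp
      linear_combination -(μ * sform hf x b) * hst
  refine ⟨ofEquiv (LinearEquiv.ofLinear (l t) (l (-t)) (LinearMap.ext fun x => hinv t hst x)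
    (LinearMap.ext fun x => by simpa using hinv (-t) (by linear_combination hst) x)), fun x y => ?_, ?_, fun x => ?_⟩
  · rw [ofEquiv_mulVec, ofEquiv_mulVec]
    change sform hf (l t x) (l t y) = sform hf x y
    simp only [hla, map_add, map_sub, map_smul, LinearMap.add_apply, LinearMap.sub_apply,
      LinearMap.smul_apply, smul_eq_mul, sform_self hf, hb1, hb2, sform_skew hf b y, sform_skew hf (J *ᵥ b) y]
    field_simp
    linear_combination (μ * ((sform hf x b) * (sform hf y (J *ᵥ b)) - (sform hf x (J *ᵥ b)) * (sform hf y b))) * hst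
  · refine Matrix.ext_of_mulVec_single fun i => ?_
    generalize (Pi.single i 1 : ι → F) = x
    rw [← Matrix.mulVec_mulVec, ← Matrix.mulVec_mulVec, ofEquiv_mulVec, ofEquiv_mulVec]
    change l t (J *ᵥ x) = J *ᵥ l t x
    simp only [hla, Matrix.mulVec_add, Matrix.mulVec_smul, hS.sq, hS.adj x, map_smul, smul_eq_mul]
    match_scalars <;> field_simp <;> ring
  · rw [ofEquiv_mulVec]
    exact hla t x

variable (hn : Fintype.card ι = 4)
include hn

lemma finrank_kline_eq {v : ι → F} (hv : v ≠ 0) : finrank F (kline J v) = 2 := by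
  refine le_antisymm (hS.kstr.finrank_kline_le v) ?_
  have hli : LinearIndependent F ![v, J *ᵥ v] := LinearIndependent.pair_iff.2 fun r s h => hS.kstr.indep hv h
  have h1 := finrank_span_eq_card hli
  rw [Fintype.card_fin] at h1
  refine h1.ge.trans ?_
  refine Submodule.finrank_mono (Submodule.span_le.2 ?_)
  rintro _ ⟨i, rfl⟩
  fin_cases i
  · exact self_mem_kline v
  · exact J_mem_kline v

omit hn in
lemma mem_perp_kline {v y : ι → F} : y ∈ perp hS.isNondeg (kline J v) ↔ sform hf v y = 0 ∧ sform hf v (J *ᵥ y) = 0 := by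
  constructor
  · intro hy
    obtain ⟨e1, e2⟩ := hS.sform_of_bform (hy v (self_mem_kline v)) (hy _ (J_mem_kline v))
    exact Six.orth_symm hS e1 e2
  · rintro ⟨h1, h2⟩ w hw
    obtain ⟨r, s, rfl⟩ := mem_kline.1 hw
    simp [map_add, map_smul, hS.bform_eq, hS.sform_J_J, h1, h2]

/-- The perpendicular of a `K`-line is the `K`-line of any of its non-zero vectors. -/
lemma perp_kline_eq {v y : ι → F} (hv : v ≠ 0) (hy0 : y ≠ 0) (h1 : sform hf v y = 0)
    (h2 : sform hf v (J *ᵥ y) = 0) : perp hS.isNondeg (kline J v) = kline J y := by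
  refine (Submodule.eq_of_le_of_finrank_le ?_ ?_).symm
  · rw [kline_le_iff]
    exact ⟨(mem_perp_kline hS).2 ⟨h1, h2⟩, (mem_perp_kline hS).2 ⟨h2, by rw [hS.sq, map_smul, h1, smul_zero]⟩⟩
  · have := finrank_perp_add hS.isNondeg (kline J v)
    rw [finrank_kline_eq hS hn hv, hn] at this
    rw [finrank_kline_eq hS hn hy0]
    omega

lemma aniso_of_orth {b z : ι → F} (hb : qJform f J b ≠ 0) (hz : z ≠ 0) (h1 : sform hf b z = 0)
    (h2 : sform hf b (J *ᵥ z) = 0) : qJform f J z ≠ 0 := by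
  intro h0
  have hb0 : b ≠ 0 := by rintro rfl; exact hb (q_zero hS.isNondeg)
  have hzz := perp_kline_eq hS hn hz hz (sform_self hf z) h0
  obtain ⟨h1', h2'⟩ := Six.orth_symm hS h1 h2
  have hm : b ∈ kline J z := hzz ▸ (mem_perp_kline hS).2 ⟨h1', h2'⟩
  obtain ⟨r, s, rfl⟩ := mem_kline.1 hm
  refine hb ?_
  simp only [qJform, ← sform_apply hf, Matrix.mulVec_add, Matrix.mulVec_smul, hS.sq, map_add, map_smul,
    LinearMap.add_apply, LinearMap.smul_apply, smul_eq_mul, sform_self hf, (hS.iso_iff z).1 h0,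
    sform_comm_zero hf ((hS.iso_iff z).1 h0)]
  ring

/-- An isotropic vector pairing to one with `x`. -/
lemma exists_iso_one {x : ι → F} (hx : x ≠ 0) :
    ∃ u, qJform f J u = 0 ∧ bform hS.isNondeg x u = 1 := by
  obtain ⟨u, -, hu, hxu⟩ := exists_singular_b_one_small hS.isNondeg hS.two (⊥ : Submodule F (ι → F))
    (c := x) (by simpa using hx) (by rw [finrank_bot]; omega)
  exact ⟨u, hu, hxu⟩

/-- An isometry mapping singular `K`-lines to `K`-lines normalises the field. -/
lemma conj_J_eq {g : GL ι F} (hgI : ∀ x y, f ((g : Matrix ι ι F) *ᵥ x) ((g : Matrix ι ι F) *ᵥ y) = f x y)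
    (hg : ∀ v, qJform f J v = 0 → (g : Matrix ι ι F) *ᵥ (J *ᵥ v) ∈ kline J ((g : Matrix ι ι F) *ᵥ v)) :
    ∃ r s : F, s ≠ 0 ∧
      ((g⁻¹ : GL ι F) : Matrix ι ι F) * J * (g : Matrix ι ι F) = r • (1 : Matrix ι ι F) + s • J := by
  have hQ := hS.isNondeg
  have hK := hS.kstr
  have hδ := Six.delta_ne hS
  set J' := ((g⁻¹ : GL ι F) : Matrix ι ι F) * J * (g : Matrix ι ι F) with hJ'
  have hJ'v : ∀ v, (g : Matrix ι ι F) *ᵥ (J' *ᵥ v) = J *ᵥ ((g : Matrix ι ι F) *ᵥ v) := fun v => by
    rw [hJ']; simp only [← Matrix.mulVec_mulVec, mulVec_inv_mulVec]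
  have ginj : ∀ {x y : ι → F}, (g : Matrix ι ι F) *ᵥ x = (g : Matrix ι ι F) *ᵥ y → x = y := fun {x y} h => by
    rw [← inv_mulVec_mulVec g x, h, inv_mulVec_mulVec]
  have hsq : ∀ v, J' *ᵥ (J' *ᵥ v) = δ • v := fun v => ginj (by rw [hJ'v, hJ'v, hS.sq, Matrix.mulVec_smul])
  have hadj : ∀ x y, sform hf (J' *ᵥ x) y = - sform hf x (J' *ᵥ y) := fun x y => by
    rw [sform_apply, sform_apply, ← hgI, ← hgI x, hJ'v, hJ'v, ← sform_apply hf, ← sform_apply hf, hS.adj]
  have hloc : ∀ v, qJform f J v = 0 → v ≠ 0 → ∃ p r : F, r ≠ 0 ∧ J' *ᵥ v = p • v + r • (J *ᵥ v) := by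
    intro v hv hv0
    obtain ⟨a, b, e⟩ := mem_kline.1 (hg v hv)
    have hb : b ≠ 0 := by
      intro h0
      rw [h0, zero_smul, add_zero, ← Matrix.mulVec_smul] at e
      exact one_ne_zero (neg_eq_zero.1 (hK.indep hv0 (r := a) (s := -1) (by rw [← ginj e]; module)).2)
    refine ⟨-(b⁻¹ * a), b⁻¹, inv_ne_zero hb, ginj ?_⟩
    rw [hJ'v, Matrix.mulVec_add, Matrix.mulVec_smul, Matrix.mulVec_smul, ← e]
    match_scalars <;> field_simp <;> ring
  have pair : ∀ u v, qJform f J u = 0 → qJform f J v = 0 → u ≠ 0 → v ∉ kline J u → sform hf u (J *ᵥ v) = 0 →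
      ∀ p r p' r' : F, J' *ᵥ u = p • u + r • (J *ᵥ u) → J' *ᵥ v = p' • v + r' • (J *ᵥ v) → p = p' ∧ r = r' := by
    intro u v hu hv hu0 hind huv p r p' r' e e'
    have hs : qJform f J (u + v) = 0 := by rw [q_add hQ, hu, hv, hS.bform_eq, huv]; ring
    have hs0 : u + v ≠ 0 := fun h0 => hind (by
      rw [eq_neg_of_add_eq_zero_right h0]; exact Submodule.neg_mem _ (self_mem_kline u))
    obtain ⟨a, b, -, e3⟩ := hloc (u + v) hs hs0
    rw [Matrix.mulVec_add, e, e', Matrix.mulVec_add] at e3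
    have h4 : (p - a) • u + (r - b) • (J *ᵥ u) = (a - p') • v + (b - r') • (J *ᵥ v) := by
      linear_combination (norm := module) e3
    have hm : (a - p') • v + (b - r') • (J *ᵥ v) ∈ kline J u := h4 ▸ mem_kline.2 ⟨_, _, rfl⟩
    have hb0 : b - r' = 0 := by
      by_contra hb
      refine hind (hK.mem_of_J_eq (t := -((b - r')⁻¹ * (a - p'))) (Submodule.smul_mem _ (b - r')⁻¹ hm) ?_)
      rw [smul_add, smul_smul, smul_smul, inv_mul_cancel₀ hb, one_smul]
      module
    rw [hb0, zero_smul, add_zero] at h4 hm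
    have ha0 : a - p' = 0 := by
      by_contra ha
      exact hind ((Submodule.smul_mem_iff _ ha).1 hm)
    rw [ha0, zero_smul] at h4
    obtain ⟨h5, h6⟩ := hK.indep hu0 h4
    exact ⟨by linear_combination h5 + ha0, by linear_combination h6 + hb0⟩
  have line : ∀ u, qJform f J u = 0 → u ≠ 0 → ∃ r : F, r * r = 1 ∧ ∀ z ∈ kline J u, J' *ᵥ z = r • (J *ᵥ z) := by
    intro u hu hu0
    obtain ⟨w, hw, huw⟩ := exists_iso_one hS hn hu0
    rw [hS.bform_eq] at huw
    set c := sform hf u w with hc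
    set v := J *ᵥ w + (-(2 * δ * c)) • w with hvd
    have huv : sform hf u (J *ᵥ v) = 0 := by
      rw [hvd, Matrix.mulVec_add, Matrix.mulVec_smul, hS.sq, map_add, map_smul, map_smul, ← hc]
      simp only [smul_eq_mul]
      linear_combination -(δ * c) * huw
    have huv' : sform hf u v ≠ 0 := by
      intro h0
      refine hS.irr (2 * δ * c) ?_
      rw [hvd, map_add, map_smul, ← hc, smul_eq_mul] at h0
      linear_combination -(2 * δ) * h0 + δ * huw
    have hwJ : sform hf w (J *ᵥ w) = 0 := hw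
    have hv : qJform f J v = 0 := by
      simp only [qJform, ← sform_apply hf, hvd, Matrix.mulVec_add, Matrix.mulVec_smul, hS.sq, map_add, map_smul,
        LinearMap.add_apply, LinearMap.smul_apply, smul_eq_mul, sform_self hf, hwJ, sform_comm_zero hf hwJ]
      ring
    have hind : v ∉ kline J u := fun hm => huv' (by
      obtain ⟨a, b, e⟩ := mem_kline.1 hm
      rw [← e, map_add, map_smul, map_smul, sform_self hf, (hS.iso_iff u).1 hu]
      simp)
    have hv0 : v ≠ 0 := fun h0 => hind (h0 ▸ zero_mem _)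
    obtain ⟨p, r, hr, e⟩ := hloc u hu hu0
    obtain ⟨p', r', -, e'⟩ := hloc v hv hv0
    obtain ⟨rfl, rfl⟩ := pair u v hu hv hu0 hind huv p r p' r' e e'
    clear_value v
    have h1 := hadj u v
    rw [e, e', map_add, map_smul, map_smul, LinearMap.add_apply, LinearMap.smul_apply, LinearMap.smul_apply,
      map_add, map_smul, map_smul, hS.adj, huv] at h1
    simp only [smul_eq_mul] at h1
    have hp : p = 0 :=
      (mul_eq_zero.1 (show (2 * p) * sform hf u v = 0 by linear_combination h1)).resolve_right huv' |>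
        fun h => (mul_eq_zero.1 h).resolve_left hS.two
    rw [hp, zero_smul, zero_add] at e
    have eJ : J' *ᵥ (J *ᵥ u) = (δ / r) • u := by
      have h2 := hsq u
      rw [e, Matrix.mulVec_smul] at h2
      rw [div_eq_inv_mul, ← smul_smul, ← h2, inv_smul_smul₀ hr]
    have hrr : r * r = 1 := by
      have h3 := hadj (J *ᵥ u) v
      rw [eJ, e', hp, zero_smul, zero_add, map_smul, LinearMap.smul_apply, map_smul, hS.sform_J_J] at h3
      simp only [smul_eq_mul] at h3
      have h4 : (δ / r - δ * r) * sform hf u v = 0 := by linear_combination h3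
      have h5 := (mul_eq_zero.1 h4).resolve_right huv'
      field_simp at h5
      exact mul_left_cancel₀ hδ (by linear_combination -h5)
    refine ⟨r, hrr, fun z hz => ?_⟩
    obtain ⟨a, b, rfl⟩ := mem_kline.1 hz
    simp only [Matrix.mulVec_add, Matrix.mulVec_smul, e, eJ, hS.sq]
    match_scalars
    · ring
    · field_simp
      linear_combination -b * hrr
  obtain ⟨v₀, -, hv₀0, hv₀⟩ := exists_singular hQ (S := ⊤) (by rw [finrank_top, finrank_fintype_fun_eq_card]; omega)
  obtain ⟨r, hrr, e₀⟩ := line v₀ hv₀ hv₀0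
  have hsing : ∀ v, qJform f J v = 0 → J' *ᵥ v = r • (J *ᵥ v) := by
    intro v hv
    by_cases hmem : v ∈ kline J v₀
    · exact e₀ v hmem
    have hv0 : v ≠ 0 := fun h0 => hmem (h0 ▸ zero_mem _)
    obtain ⟨r', -, e'⟩ := line v hv hv0
    suffices h : ∀ w ∈ kline J v, qJform f J w = 0 → w ∉ kline J v₀ → sform hf v₀ (J *ᵥ w) = 0 → r = r' by
      by_cases hA : sform hf v₀ (J *ᵥ v) = 0
      · rw [h v (self_mem_kline v) hv hmem hA]; exact e' v (self_mem_kline v)
      · set w := sform hf v₀ v • v + (-(sform hf v₀ (J *ᵥ v) / δ)) • (J *ᵥ v) with hw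
        have hwQ : qJform f J w = 0 := by
          rw [hw, q_add hQ, q_smul hQ, q_smul hQ, Six.qJ_J hS, hv, map_smul, map_smul, LinearMap.smul_apply,
            hK.bJ, hv]
          simp
        have hwN : w ∉ kline J v₀ := fun hm => by
          refine hmem (hK.mem_of_J_eq (t := sform hf v₀ v * δ / sform hf v₀ (J *ᵥ v))
            (Submodule.smul_mem _ (-(δ / sform hf v₀ (J *ᵥ v))) hm) ?_)
          rw [hw]
          match_scalars <;> field_simp [hδ] <;> ring
        rw [h w (mem_kline.2 ⟨_, _, rfl⟩) hwQ hwN (by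
          rw [hw, Matrix.mulVec_add, Matrix.mulVec_smul, Matrix.mulVec_smul, hS.sq, map_add, map_smul, map_smul,
            map_smul]
          simp only [smul_eq_mul]
          field_simp [hδ]
          ring)]
        exact e' v (self_mem_kline v)
    intro w hwK hw hwN hA
    exact (pair v₀ w hv₀ hw hv₀0 hwN hA 0 r 0 r' (by rw [zero_smul, zero_add]; exact e₀ v₀ (self_mem_kline v₀))
      (by rw [zero_smul, zero_add]; exact e' w hwK)).2
  refine ⟨0, r, fun h => by rw [h, mul_zero] at hrr; exact zero_ne_one hrr, Matrix.ext_of_mulVec_single fun i => ?_⟩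
  generalize (Pi.single i 1 : ι → F) = x
  rw [zero_smul, zero_add, Matrix.smul_mulVec]
  by_cases hx : qJform f J x = 0
  · exact hsing x hx
  have hx0 : x ≠ 0 := by rintro rfl; exact hx (q_zero hQ)
  obtain ⟨d, hd, hxd⟩ := exists_iso_one hS hn hx0
  have hwQ : qJform f J (x - qJform f J x • d) = 0 := by
    rw [q_sub hQ, q_smul hQ, hd, map_smul, hxd, smul_eq_mul]; ring
  have h1 := hsing _ hwQ
  have h2 := hsing _ hd
  rw [Matrix.mulVec_sub, Matrix.mulVec_sub, Matrix.mulVec_smul, Matrix.mulVec_smul, h2] at h1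
  linear_combination (norm := module) h1

variable {H : Subgroup (GL ι F)}
variable (hH : ∀ g ∈ H, ∀ x y, f ((g : Matrix ι ι F) *ᵥ x) ((g : Matrix ι ι F) *ᵥ y) = f x y)
variable (hC : ∀ g : GL ι F, (∀ x y, f ((g : Matrix ι ι F) *ᵥ x) ((g : Matrix ι ι F) *ᵥ y) = f x y) →
  (g : Matrix ι ι F) * J = J * (g : Matrix ι ι F) → g ∈ H)
include hH hC

omit hS hn hH hC in
/-- Root elements at one vector with two non-orthogonal second vectors give a transvection group. -/
lemma group_of_heis {p q q' : ι → F} (h2 : (2 : F) ≠ 0) (hpq : sform hf p q = 0) (hpq' : sform hf p q' = 0)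
    (hne : sform hf q q' ≠ 0) (h : ∀ r : F, biT hf p (r • q) ∈ H) (h' : biT hf p q' ∈ H) :
    ∀ c : F, sympT hf p c ∈ H := by
  intro c
  set r := c / (-2 * sform hf q q') with hr
  have hpr : sform hf p (r • q) = 0 := by rw [map_smul, hpq, smul_zero]
  have h1 := H.mul_mem (H.mul_mem (h r) h') (H.inv_mem (H.mul_mem h' (h r)))
  rw [biT_mul hf hpr hpq', biT_mul hf hpq' hpr, add_comm q' (r • q), mul_inv_rev, mul_assoc,
    ← mul_assoc (sympT hf p _) _ _, sympT_inv hf, sympT_mul hf, ← mul_assoc] at h1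
  have hcm : ∀ k : F, biT hf p (r • q + q') * sympT hf p k = sympT hf p k * biT hf p (r • q + q') := fun k => by
    refine ext_mulVec fun x => ?_
    have hs : sform hf p (r • q + q') = 0 := by rw [map_add, hpr, hpq', add_zero]
    rw [Units.val_mul, Units.val_mul, ← Matrix.mulVec_mulVec, ← Matrix.mulVec_mulVec, tv_mulVec hf,
      biT_mulVec hf hs, biT_mulVec hf hs, tv_mulVec hf]
    simp only [map_add, map_smul, LinearMap.add_apply, LinearMap.smul_apply, smul_eq_mul,
      sform_comm_zero hf hpq', sform_comm_zero hf hpq, hpq, hpq', sform_self hf]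
    module
  rw [hcm, mul_inv_cancel_right] at h1
  convert h1 using 2
  simp only [map_smul, LinearMap.smul_apply, smul_eq_mul, sform_skew hf q' q, hr]
  field_simp [h2]
  ring

/-- A root element outside the `K`-lines, with anisotropic second vector, gives a transvection group at an
anisotropic vector. -/
lemma group_of_root_aux {s t : F} (hst : s * s - δ * (t * t) = 1) (hs : s ≠ 0) (ht : t ≠ 0) {a b : ι → F}
    (hb : qJform f J b ≠ 0) (ha : a ∉ kline J b) (hab : sform hf a b = 0)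
    (h : ∀ r : F, sympT hf b r * sympT hf a (-(r * δ)) ∈ H) :
    ∃ w, qJform f J w ≠ 0 ∧ ∀ c : F, sympT hf w c ∈ H := by
  have hδ := Six.delta_ne hS
  set μ := qJform f J b with hμ
  have hbb : sform hf b (J *ᵥ b) = μ := rfl
  have hbb' : sform hf (J *ᵥ b) b = -μ := by rw [sform_skew hf, hbb]
  set lam := sform hf a (J *ᵥ b) / μ with hlam
  set z := a - lam • b with hz
  have hz0 : z ≠ 0 := fun h0 => ha (by rw [sub_eq_zero.1 h0]; exact Submodule.smul_mem _ _ (self_mem_kline b))
  have hzb : sform hf z b = 0 := by rw [hz, map_sub, LinearMap.sub_apply, hab, map_smul, LinearMap.smul_apply, sform_self hf]; simp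
  have hbz : sform hf b z = 0 := sform_comm_zero hf hzb
  have hzb' : sform hf z (J *ᵥ b) = 0 := by
    rw [hz, map_sub, LinearMap.sub_apply, map_smul, LinearMap.smul_apply, hbb, smul_eq_mul, hlam,
      div_mul_cancel₀ _ hb, sub_self]
  have hbz' : sform hf b (J *ᵥ z) = 0 := by rw [Six.flip hS]; exact hzb'
  have hzQ := aniso_of_orth hS hn hb hz0 hbz hbz'
  have hrot : ∀ s t : F, s * s - δ * (t * t) = 1 → ∃ g ∈ H,
      (g : Matrix ι ι F) *ᵥ z = z ∧ (g : Matrix ι ι F) *ᵥ b = s • b + t • (J *ᵥ b) ∧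
      ∀ x, (g : Matrix ι ι F) *ᵥ x = x + ((s - 1) * (sform hf x (J *ᵥ b) / μ) - t * δ * (sform hf x b / μ)) • b +
        (t * (sform hf x (J *ᵥ b) / μ) - (s - 1) * (sform hf x b / μ)) • (J *ᵥ b) := by
    intro s t hst
    obtain ⟨g, hgI, hgC, hg⟩ := exists_rot hS hb hst
    refine ⟨g, hC g hgI hgC, ?_, ?_, hg⟩
    · rw [hg, hzb, hzb']; simp
    · rw [hg, hbb, sform_self hf, div_self hb]; module
  by_cases hl : lam = 0
  swap
  · have haz : a = z + lam • b := by rw [hz, sub_add_cancel]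
    obtain ⟨ρ, hρI, hρC, hρ⟩ := Six.exists_reflection hS hzQ
    have hρH : ρ ∈ H := hC ρ hρI hρC
    have hρb : (ρ : Matrix ι ι F) *ᵥ b = b := by rw [hρ, hbz, hbz']; simp
    have hρz : (ρ : Matrix ι ι F) *ᵥ z = -z := by
      rw [hρ, sform_self hf, show sform hf z (J *ᵥ z) = qJform f J z from rfl, div_self hzQ]; module
    have hρa : (ρ : Matrix ι ι F) *ᵥ a = lam • b - z := by
      rw [haz, Matrix.mulVec_add, Matrix.mulVec_smul, hρb, hρz]; module
    have hB : ∀ k : F, biT hf z (k • b) ∈ H := fun k => by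
      set r := -(k / (2 * δ * lam)) with hr
      have h1 := h r
      have h2 := H.mul_mem (H.mul_mem hρH h1) (H.inv_mem hρH)
      rw [show ρ * (sympT hf b r * sympT hf a (-(r * δ))) * ρ⁻¹ =
          (ρ * sympT hf b r * ρ⁻¹) * (ρ * sympT hf a (-(r * δ)) * ρ⁻¹) by group,
        conj_sympT hf hρI, conj_sympT hf hρI, hρb, hρa] at h2
      have h3 := H.mul_mem (H.inv_mem h2) h1
      rw [mul_inv_rev, mul_assoc, inv_mul_cancel_left, sympT_inv hf] at h3
      convert h3 using 1
      refine ext_mulVec fun x => ?_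
      have hzk : sform hf z (k • b) = 0 := by rw [map_smul, hzb, smul_zero]
      rw [biT_mulVec hf hzk, Units.val_mul, ← Matrix.mulVec_mulVec, tv_mulVec hf, tv_mulVec hf, haz]
      simp only [map_add, map_sub, map_smul, LinearMap.add_apply, LinearMap.sub_apply, LinearMap.smul_apply,
        smul_eq_mul, sform_self hf, hzb, hbz, hr]
      match_scalars <;> field_simp [hS.two] <;> ring
    obtain ⟨g, hgH, hgz, hgb, -⟩ := hrot s t hst
    refine ⟨z, hzQ, group_of_heis hS.two hzb (q' := s • b + t • (J *ᵥ b)) ?_ ?_ hB ?_⟩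
    · rw [map_add, map_smul, map_smul, hzb, hzb', smul_zero, smul_zero, add_zero]
    · rw [map_add, map_smul, map_smul, sform_self hf, hbb, smul_zero, zero_add]
      exact mul_ne_zero ht hb
    · have h1 := H.mul_mem (H.mul_mem hgH (hB 1)) (H.inv_mem hgH)
      rwa [conj_biT hf (hH g hgH) (by rw [one_smul]; exact hzb), one_smul, hgz, hgb] at h1
  rw [hz, hl, zero_smul, sub_zero] at hz0 hzb hzb' hbz hbz' hrot
  obtain ⟨c, hcH, hca, hcb, hc⟩ := hrot s t hst
  obtain ⟨c', hc'H, -, -, hc'⟩ := hrot (-s) (-t) (by linear_combination hst)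
  -- one transvection at `b`
  set r₀ := -(2 * s / (t * μ)) with hr₀
  have hk : sympT hf b (2 * r₀) ∈ H := by
    have h1 := H.mul_mem (H.mul_mem (H.mul_mem (h r₀) hc'H) (h (-r₀))) hcH
    convert h1 using 1
    refine ext_mulVec fun x => ?_
    simp only [Units.val_mul, ← Matrix.mulVec_mulVec, tv_mulVec hf]
    simp only [hc, hc', map_add, map_sub, map_smul, LinearMap.add_apply, LinearMap.sub_apply, LinearMap.smul_apply,
      smul_eq_mul, sform_self hf, hab, sform_comm_zero hf hab, hzb', hbb, hbb', sform_comm_zero hf hzb', hr₀]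
    match_scalars
    · ring
    · field_simp
      linear_combination (μ ^ 5 * t ^ 3 * (4 * s * (sform hf x b) - t * (sform hf x (J *ᵥ b)))) * hst
    · field_simp
      linear_combination (μ ^ 3 * t ^ 2 * sform hf x b) * hst
    all_goals (field_simp; ring)
  -- all transvections at `b`
  set τ := t * μ with hτ
  have hτ0 : τ ≠ 0 := mul_ne_zero ht hb
  set b' := s • b + t • (J *ᵥ b) with hb'
  have hbb'' : sform hf b b' = τ := by
    rw [hb', map_add, map_smul, map_smul, sform_self hf, hbb, smul_eq_mul, smul_eq_mul, hτ]; ring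
  have hX' : ∀ r : F, sympT hf b' r * sympT hf a (-(r * δ)) ∈ H := fun r => by
    have := H.mul_mem (H.mul_mem hcH (h r)) (H.inv_mem hcH)
    rwa [show c * (sympT hf b r * sympT hf a (-(r * δ))) * c⁻¹ =
        (c * sympT hf b r * c⁻¹) * (c * sympT hf a (-(r * δ)) * c⁻¹) by group,
      conj_sympT hf (hH c hcH), conj_sympT hf (hH c hcH), hcb, hca] at this
  have hab' : sform hf a b' = 0 := by
    rw [hb', map_add, map_smul, map_smul, hab, hzb', smul_zero, smul_zero, add_zero]
  have hscale : ∀ l : F, l ≠ 0 → sympT hf b (2 * r₀ * l ^ 2) ∈ H := by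
    intro l hl0
    set r₁ := 1 / τ with h1r
    set r₂ := (1 - l) / τ with h2r
    set r₃ := -(1 / (l * τ)) with h3r
    set Y := (sympT hf b' r₃ * sympT hf a (-(r₃ * δ))) * (sympT hf b r₂ * sympT hf a (-(r₂ * δ))) *
      (sympT hf b' r₁ * sympT hf a (-(r₁ * δ))) with hY
    have hYH : Y ∈ H := H.mul_mem (H.mul_mem (hX' r₃) (h r₂)) (hX' r₁)
    have hYb : (Y : Matrix ι ι F) *ᵥ b = l • b := by
      simp only [hY, Units.val_mul, ← Matrix.mulVec_mulVec, tv_mulVec hf, map_add, map_smul, LinearMap.add_apply,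
        LinearMap.smul_apply, smul_eq_mul, sform_self hf, hbb'', sform_skew hf b' b, hab, sform_comm_zero hf hab,
        hab', sform_comm_zero hf hab', h1r, h2r, h3r]
      match_scalars <;> field_simp <;> ring
    have h1 := Six.conj_transv hH hYH hk
    rwa [hYb, sympT_smul hf] at h1
  refine ⟨b, hb, fun k => ?_⟩
  have hr₀0 : 2 * r₀ ≠ 0 := by
    rw [hr₀]
    exact mul_ne_zero hS.two (neg_ne_zero.2 (div_ne_zero (mul_ne_zero hS.two hs) hτ0))
  set m := k / (2 * r₀) with hm
  have key : ∀ l : F, sympT hf b (2 * r₀ * l ^ 2) ∈ H := by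
    intro l
    by_cases hl0 : l = 0
    · rw [hl0, show (2 * r₀ * (0 : F) ^ 2) = 0 by ring,
        show sympT hf b (0 : F) = 1 from ext_mulVec fun x => by rw [sympT_mulVec]; simp]
      exact H.one_mem
    · exact hscale l hl0
  have h1 := H.mul_mem (key ((m + 1) / 2)) (H.inv_mem (key ((m - 1) / 2)))
  rw [sympT_inv hf, sympT_mul hf] at h1
  have hmk : 2 * r₀ * m = k := by rw [hm, mul_div_cancel₀ k hr₀0]
  rwa [show 2 * r₀ * ((m + 1) / 2) ^ 2 + -(2 * r₀ * ((m - 1) / 2) ^ 2) = k by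
    rw [← hmk]; field_simp [hS.two]; ring] at h1

/-- A root element outside the `K`-lines gives a transvection group at an anisotropic vector. -/
lemma group_of_root {s t : F} (hst : s * s - δ * (t * t) = 1) (hs : s ≠ 0) (ht : t ≠ 0) {a b : ι → F}
    (ha0 : a ≠ 0) (hb : b ∉ kline J a) (hab : sform hf a b = 0)
    (h : ∀ r : F, sympT hf b r * sympT hf a (-(r * δ)) ∈ H) :
    ∃ w, qJform f J w ≠ 0 ∧ ∀ c : F, sympT hf w c ∈ H := by
  have hδ := Six.delta_ne hS
  have hab' : a ∉ kline J b := hS.kstr.kline_symm hb ha0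
  by_cases hQb : qJform f J b ≠ 0
  · exact group_of_root_aux hS hn hH hC hst hs ht hQb hab' hab h
  push Not at hQb
  by_cases hQa : qJform f J a ≠ 0
  · refine group_of_root_aux hS hn hH hC hst hs ht (a := δ⁻¹ • b) hQa (fun hm => hb ?_) ?_ fun r => ?_
    · exact (Submodule.smul_mem_iff _ (inv_ne_zero hδ)).1 hm
    · rw [map_smul, LinearMap.smul_apply, sform_comm_zero hf hab, smul_zero]
    · have h1 := h (-(r / δ))
      convert h1 using 1
      refine ext_mulVec fun x => ?_
      simp only [Units.val_mul, ← Matrix.mulVec_mulVec, tv_mulVec hf, map_add, map_smul, LinearMap.add_apply,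
        LinearMap.smul_apply, smul_eq_mul, hab, sform_comm_zero hf hab]
      match_scalars <;> field_simp <;> ring
  push Not at hQa
  have hm : sform hf a (J *ᵥ b) ≠ 0 := fun h0 => by
    have := perp_kline_eq hS hn ha0 ha0 (sform_self hf a) hQa
    exact hb (this ▸ (mem_perp_kline hS).2 ⟨hab, h0⟩)
  set a' := a + b with ha'
  set b' := b + δ • a with hb'
  have hQb' : qJform f J b' ≠ 0 := by
    rw [hb', q_add hS.isNondeg, q_smul hS.isNondeg, hQb, hQa, hS.bform_eq, Matrix.mulVec_smul, map_smul,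
      smul_eq_mul, Six.flip hS b a]
    simp only [mul_zero, zero_add]
    exact mul_ne_zero hS.two (mul_ne_zero hδ hm)
  refine group_of_root_aux hS hn hH hC hst hs ht (a := a') hQb' (fun hmem => ?_) ?_ fun r => ?_
  · have h1 : (1 - δ) ≠ 0 := fun h0 => hS.irr 1 (by linear_combination h0)
    have haK : a ∈ kline J b' := by
      refine (Submodule.smul_mem_iff _ h1).1 ?_
      rw [show (1 - δ) • a = a' - b' by rw [ha', hb']; module]
      exact Submodule.sub_mem _ hmem (self_mem_kline b')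
    have hbK : b ∈ kline J b' := by
      rw [show b = b' - δ • a by rw [hb', add_sub_cancel_right]]
      exact Submodule.sub_mem _ (self_mem_kline b') (Submodule.smul_mem _ _ haK)
    have hb'K : b' ∈ kline J a := by
      by_contra hn'
      exact hS.kstr.kline_symm hn' ha0 haK
    exact hb (kline_le_iff.2 ⟨hb'K, hS.kstr.J_stable hb'K⟩ hbK)
  · simp only [ha', hb', map_add, map_smul, LinearMap.add_apply, sform_self hf, hab, sform_comm_zero hf hab]
    simp
  · have h1 := h (r * (1 - δ))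
    convert h1 using 1
    refine ext_mulVec fun x => ?_
    simp only [ha', hb', Units.val_mul, ← Matrix.mulVec_mulVec, tv_mulVec hf, map_add, map_smul, LinearMap.add_apply,
      LinearMap.smul_apply, smul_eq_mul, hab, sform_comm_zero hf hab, sform_self hf]
    match_scalars <;> ring

/-- A transvection group at an anisotropic vector gives all transvections. -/
lemma all_of_group {s t : F} (hst : s * s - δ * (t * t) = 1) (ht : t ≠ 0) {w : ι → F}
    (hw : qJform f J w ≠ 0) (hwG : ∀ c : F, sympT hf w c ∈ H) : ∀ x c, sympT hf x c ∈ H := by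
  have hw0 : w ≠ 0 := by rintro rfl; exact hw (q_zero hS.isNondeg)
  -- the whole line of an anisotropic centre
  have hline : ∀ v, qJform f J v ≠ 0 → (∀ c : F, sympT hf v c ∈ H) → ∀ x ∈ kline J v, ∀ c : F, sympT hf x c ∈ H := by
    intro v hv hvG x hx c
    obtain ⟨g, hgI, hgC, hg⟩ := exists_rot hS hv hst
    have hvv : sform hf v (J *ᵥ v) = qJform f J v := rfl
    have hgv : (g : Matrix ι ι F) *ᵥ v = s • v + t • (J *ᵥ v) := by
      rw [hg, hvv, sform_self hf, div_self hv]; module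
    have hG' : ∀ c : F, sympT hf (s • v + t • (J *ᵥ v)) c ∈ H := fun c => hgv ▸ Six.conj_transv hH (hC g hgI hgC) (hvG c)
    obtain ⟨p, q, rfl⟩ := mem_kline.1 hx
    by_cases hp : p - q / t * s = 0
    · rw [show p • v + q • (J *ᵥ v) = (q / t) • (s • v + t • (J *ᵥ v)) by
        rw [sub_eq_zero.1 hp]; match_scalars <;> field_simp]
      exact Six.group_smul hG' _ c
    · rw [show p • v + q • (J *ᵥ v) = (p - q / t * s) • v + (q / t) • (s • v + t • (J *ᵥ v)) by
        match_scalars <;> field_simp <;> ring]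
      refine Six.group_add hH (Six.group_smul hvG _) hG' ?_ _ c
      simp only [map_add, map_smul, LinearMap.smul_apply, smul_eq_mul, sform_self hf, hvv, mul_zero, zero_add]
      exact mul_ne_zero ht (mul_ne_zero hp hv)
  obtain ⟨e, he, hwe⟩ := exists_iso_one hS hn hw0
  rw [hS.bform_eq] at hwe
  have hwe' : sform hf w (J *ᵥ e) ≠ 0 := fun h0 => by rw [h0, mul_zero] at hwe; exact zero_ne_one hwe
  set g := kT hf J δ e 1 with hg
  have hgH : g ∈ H := hC g (kT_preserves e 1) (hS.kT_commute he 1)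
  have hne : sform hf w ((g : Matrix ι ι F) *ᵥ w) ≠ 0 := by
    rw [hg, Six.sform_kT hS he]; exact Six.kT_norm_ne hS (Or.inr hwe')
  set w₁ := (g : Matrix ι ι F) *ᵥ w with hw₁
  have hw₁G : ∀ c : F, sympT hf w₁ c ∈ H := fun c => Six.conj_transv hH hgH (hwG c)
  have hww : sform hf w (J *ᵥ w) = qJform f J w := rfl
  have hww' : sform hf (J *ᵥ w) w = -qJform f J w := by rw [sform_skew hf, hww]
  set P : (ι → F) → (ι → F) := fun x =>
    (sform hf x (J *ᵥ w) / qJform f J w) • w - (sform hf x w / qJform f J w) • (J *ᵥ w) with hP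
  have hPK : ∀ x, P x ∈ kline J w := fun x => mem_kline.2
    ⟨sform hf x (J *ᵥ w) / qJform f J w, -(sform hf x w / qJform f J w), by simp only [hP, neg_smul, sub_eq_add_neg]⟩
  have hPo : ∀ x, sform hf w (x - P x) = 0 ∧ sform hf w (J *ᵥ (x - P x)) = 0 := fun x => by
    constructor
    · simp only [hP, map_sub, map_smul, smul_eq_mul, sform_self hf, hww, sform_skew hf w x]
      field_simp; ring
    · simp only [hP, Matrix.mulVec_sub, Matrix.mulVec_smul, hS.sq, map_sub, map_smul, smul_eq_mul, sform_self hf,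
        hww, Six.flip hS w x]
      field_simp; ring
  set l₀ := w₁ - P w₁ with hl₀
  have hl₀0 : l₀ ≠ 0 := by
    intro h0
    rw [sub_eq_zero] at h0
    -- the translation is a non-zero singular vector of the line of `e`
    have hd : w₁ - w ∈ kline J e := by
      rw [hw₁, hg, hS.kT_mulVec he]
      exact mem_kline.2 ⟨-(δ * sform hf w e), sform hf w (J *ᵥ e), by module⟩
    have hdw : w₁ - w ∈ kline J w := Submodule.sub_mem _ (h0 ▸ hPK w₁) (self_mem_kline w)
    have hd0 : w₁ - w ≠ 0 := fun h1 => hne (by rw [sub_eq_zero.1 h1, sform_self hf])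
    have hwd : w ∈ kline J (w₁ - w) := by
      by_contra hn'
      exact hS.kstr.kline_symm hn' hd0 hdw
    have hwe'' : w ∈ kline J e := kline_le_iff.2 ⟨hd, hS.kstr.J_stable hd⟩ hwd
    obtain ⟨p, q, hpq⟩ := mem_kline.1 hwe''
    refine hw ?_
    simp only [qJform, ← sform_apply hf, ← hpq, Matrix.mulVec_add, Matrix.mulVec_smul, hS.sq, map_add, map_smul,
      LinearMap.add_apply, LinearMap.smul_apply, smul_eq_mul, sform_self hf, (hS.iso_iff e).1 he,
      sform_comm_zero hf ((hS.iso_iff e).1 he)]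
    ring
  obtain ⟨hl₁, hl₂⟩ := hPo w₁
  rw [← hl₀] at hl₁ hl₂
  obtain ⟨hl₁', hl₂'⟩ := Six.orth_symm hS hl₁ hl₂
  have hlQ := aniso_of_orth hS hn hw hl₀0 hl₁ hl₂
  have hperp := perp_kline_eq hS hn hw0 hl₀0 hl₁ hl₂
  have hkl : ∀ k ∈ kline J w, ∀ l ∈ kline J l₀, sform hf k l = 0 := by
    intro k hk l hl
    obtain ⟨p, q, rfl⟩ := mem_kline.1 hl
    obtain ⟨p', q', rfl⟩ := mem_kline.1 hk
    simp only [map_add, map_smul, LinearMap.add_apply, LinearMap.smul_apply, smul_eq_mul, hl₁, hl₂, hS.adj,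
      hS.sq]
    ring
  obtain ⟨c, hcI, hcC, hc⟩ := exists_rot hS hlQ hst
  have hcH := hC c hcI hcC
  set l₁ := (c : Matrix ι ι F) *ᵥ l₀ with hl₁d
  have hll : sform hf l₀ (J *ᵥ l₀) = qJform f J l₀ := rfl
  have hl₁e : l₁ = s • l₀ + t • (J *ᵥ l₀) := by rw [hl₁d, hc, hll, sform_self hf, div_self hlQ]; module
  have hll₁ : sform hf l₀ l₁ ≠ 0 := by
    rw [hl₁e, map_add, map_smul, map_smul, sform_self hf, hll, smul_zero, zero_add]
    exact mul_ne_zero ht hlQ
  have hl₁K : l₁ ∈ kline J l₀ := hl₁e ▸ mem_kline.2 ⟨s, t, rfl⟩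
  have hcfix : ∀ k ∈ kline J w, (c : Matrix ι ι F) *ᵥ k = k := fun k hk => by
    rw [hc, hkl k hk _ (J_mem_kline l₀), hkl k hk _ (self_mem_kline l₀)]; simp
  have hKw := hline w hw hwG
  -- mixed vectors with second component `l₀`
  have step : ∀ k₁ ∈ kline J w, (∀ d, sympT hf (k₁ + l₀) d ∈ H) → ∀ k₂ ∈ kline J w, sform hf k₂ k₁ ≠ 0 →
      ∀ d, sympT hf (k₂ + l₀) d ∈ H := by
    intro k₁ hk₁ hG k₂ hk₂ hne d
    have := Six.group_add hH hG (hKw (k₂ - k₁) (Submodule.sub_mem _ hk₂ hk₁)) (by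
      simp only [map_sub, map_add, LinearMap.add_apply, sform_self hf,
        sform_comm_zero hf (hkl k₂ hk₂ l₀ (self_mem_kline _)), sform_comm_zero hf (hkl k₁ hk₁ l₀ (self_mem_kline _)),
        sform_skew hf k₁ k₂]
      simpa using hne) 1 d
    rwa [one_smul, show k₁ + l₀ + (k₂ - k₁) = k₂ + l₀ by abel] at this
  set k₀ := P w₁ with hk₀
  have hk₀K : k₀ ∈ kline J w := hPK w₁
  have hw₁e : w₁ = k₀ + l₀ := by rw [hl₀, add_sub_cancel]
  have hk₀w : sform hf w k₀ ≠ 0 := by
    rw [hw₁e, map_add, hl₁, add_zero] at hne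
    exact hne
  have hmixed : ∀ k ∈ kline J w, k ≠ 0 → ∀ d, sympT hf (k + l₀) d ∈ H := by
    intro k hk hk0
    by_cases h1 : sform hf k k₀ ≠ 0
    · exact step k₀ hk₀K (hw₁e ▸ hw₁G) k hk h1
    push Not at h1
    -- through `w`
    have hwk : sform hf w k ≠ 0 := by
      intro h2
      obtain ⟨p, q, rfl⟩ := mem_kline.1 hk
      rw [map_add, map_smul, map_smul, sform_self hf, hww, smul_zero, zero_add, smul_eq_mul, mul_eq_zero] at h2
      have hq := h2.resolve_right hw
      rw [hq, zero_smul, add_zero] at h1 hk0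
      rw [map_smul, LinearMap.smul_apply, smul_eq_mul, mul_eq_zero] at h1
      exact hk0 (by rw [h1.resolve_right hk₀w, zero_smul])
    refine step w (self_mem_kline w) (step k₀ hk₀K (hw₁e ▸ hw₁G) w (self_mem_kline w) hk₀w) k hk ?_
    rw [sform_skew hf, neg_ne_zero]; exact hwk
  have hKl : ∀ x ∈ kline J l₀, ∀ d : F, sympT hf x d ∈ H := by
    -- the difference of two mixed vectors is a pure one
    have hA := hmixed w (self_mem_kline w) hw0
    have hB : ∀ d, sympT hf (w + l₁) d ∈ H := fun d => by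
      have := Six.conj_transv hH hcH (hA d)
      rwa [Matrix.mulVec_add, hcfix w (self_mem_kline w)] at this
    have hdG : ∀ d, sympT hf (l₀ - l₁) d ∈ H := fun d => by
      have := Six.group_add hH hA hB (by
        simp only [map_add, LinearMap.add_apply, sform_self hf, hkl w (self_mem_kline w) _ hl₁K,
          sform_comm_zero hf hl₁, zero_add]
        exact hll₁) (-1) d
      rwa [neg_smul, one_smul, ← sub_eq_add_neg, show w + l₀ - (w + l₁) = l₀ - l₁ by abel] at this
    have hdK : l₀ - l₁ ∈ kline J l₀ := Submodule.sub_mem _ (self_mem_kline _) hl₁K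
    have hd0 : l₀ - l₁ ≠ 0 := fun h0 => hll₁ (by rw [← sub_eq_zero.1 h0, sform_self hf])
    have hdQ : qJform f J (l₀ - l₁) ≠ 0 := aniso_of_orth hS hn hw hd0 (hkl w (self_mem_kline w) _ hdK)
      (hkl w (self_mem_kline w) _ (hS.kstr.J_stable hdK))
    intro x hx
    refine hline _ hdQ hdG x ?_
    have : l₀ ∈ kline J (l₀ - l₁) := by
      by_contra hn'
      exact hS.kstr.kline_symm hn' hd0 hdK
    exact kline_le_iff.2 ⟨this, hS.kstr.J_stable this⟩ hx
  intro x
  obtain ⟨hx₁, hx₂⟩ := hPo x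
  have hlK : x - P x ∈ kline J l₀ := hperp ▸ (mem_perp_kline hS).2 ⟨hx₁, hx₂⟩
  obtain ⟨p, q, hpq⟩ := mem_kline.1 hlK
  set k := P x with hk
  have hkK : k ∈ kline J w := hPK x
  set μ₀ := p - q / t * s with hμ₀
  set ν := q / t with hν
  have hxd : x = k + (μ₀ • l₀ + ν • l₁) := by
    rw [show μ₀ • l₀ + ν • l₁ = x - k by
      rw [← hpq, hl₁e, hμ₀, hν]; match_scalars <;> field_simp <;> ring]
    abel
  by_cases hk0 : k = 0
  · intro d
    rw [hxd, hk0, zero_add]
    exact hKl _ (Submodule.add_mem _ (Submodule.smul_mem _ _ (self_mem_kline _)) (Submodule.smul_mem _ _ hl₁K)) d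
  have hone : ∀ m : F, m ≠ 0 → ∀ d, sympT hf (k + m • l₀) d ∈ H := fun m hm d => by
    have := Six.group_smul (hmixed (m⁻¹ • k) (Submodule.smul_mem _ _ hkK) (smul_ne_zero (inv_ne_zero hm) hk0)) m d
    rwa [smul_add, smul_inv_smul₀ hm] at this
  have htwo : ∀ m : F, m ≠ 0 → ∀ d, sympT hf (k + m • l₁) d ∈ H := fun m hm d => by
    have := Six.conj_transv hH hcH (hone m hm d)
    rwa [Matrix.mulVec_add, Matrix.mulVec_smul, hcfix k hkK] at this
  intro d
  by_cases hν0 : ν = 0
  · by_cases hμ : μ₀ = 0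
    · rw [hxd, hν0, hμ, zero_smul, zero_smul, add_zero, add_zero]; exact hKw k hkK d
    · rw [hxd, hν0, zero_smul, add_zero]; exact hone μ₀ hμ d
  by_cases hμ : μ₀ = 0
  · rw [hxd, hμ, zero_smul, zero_add]; exact htwo ν hν0 d
  rw [hxd, ← add_assoc]
  refine Six.group_add hH (hone μ₀ hμ) (fun d => hKl l₁ hl₁K d) ?_ ν d
  rw [map_add, LinearMap.add_apply, hkl k hkK _ hl₁K, zero_add, map_smul, LinearMap.smul_apply]
  exact mul_ne_zero hμ hll₁

omit hH hC in
/-- The normaliser in `Sp₄(q)` of the field generated by `J` is maximal, `q ≥ 5` odd. -/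
theorem unitaryOverfield_isMaximal {t₀ : F} (ht₀0 : t₀ ≠ 0) (ht₀ : t₀ * t₀ ≠ 1) (G P : Subgroup (GL ι F))
    (hG : ∀ g, g ∈ G ↔ ∀ x y, f ((g : Matrix ι ι F) *ᵥ x) ((g : Matrix ι ι F) *ᵥ y) = f x y)
    (hP : ∀ g, g ∈ P ↔ g ∈ G ∧
      ∃ r s : F, s ≠ 0 ∧ ((g⁻¹ : GL ι F) : Matrix ι ι F) * J * (g : Matrix ι ι F) = r • (1 : Matrix ι ι F) + s • J) :
    Cfsg.Geo.IsMaximalIn G P := by
  have hK := hS.kstr
  obtain ⟨k, hk0, hk1⟩ : ∃ k : F, k ≠ 0 ∧ 1 + δ * (k * k) ≠ 0 := by
    by_cases h1 : 1 + δ = 0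
    · exact ⟨t₀, ht₀0, fun h0 => ht₀ (by linear_combination (t₀ * t₀) * h1 - h0)⟩
    · exact ⟨1, one_ne_zero, by simpa using h1⟩
  have hden : 1 - δ * (k * k) ≠ 0 := fun h0 => hS.irr k⁻¹ (by field_simp; linear_combination h0)
  set s := (1 + δ * (k * k)) / (1 - δ * (k * k)) with hsd
  set t := 2 * k / (1 - δ * (k * k)) with htd
  have hst : s * s - δ * (t * t) = 1 := by
    rw [hsd, htd, div_mul_div_comm, div_mul_div_comm, mul_div_assoc', ← sub_div,
      div_eq_one_iff_eq (mul_ne_zero hden hden)]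
    ring
  have hs : s ≠ 0 := div_ne_zero hk1 hden
  have ht : t ≠ 0 := div_ne_zero (mul_ne_zero hS.two hk0) hden
  clear_value s t
  refine ⟨lt_of_le_not_ge (fun g hg => ((hP g).1 hg).1) fun hle => ?_, fun M hPM hMG => ?_⟩
  · obtain ⟨v, -, hv0, hv⟩ := exists_singular hS.isNondeg (S := ⊤) (by rw [finrank_top, finrank_fintype_fun_eq_card]; omega)
    obtain ⟨y, hy⟩ : ∃ y, sform hf y v = 1 := by
      obtain ⟨⟨x, hx⟩, -⟩ := hf.nondegenerate v hv0
      exact ⟨(f x v)⁻¹ • x, by rw [map_smul, LinearMap.smul_apply, smul_eq_mul, sform_apply, inv_mul_cancel₀ hx]⟩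
    set g := sympT hf v 1
    obtain ⟨-, r, s, -, hrs⟩ := (hP _).1 (hle ((hG g).2 (sympT_preserves hf v 1)))
    have hgJ : ∀ x, J *ᵥ ((g : Matrix ι ι F) *ᵥ x) = (g : Matrix ι ι F) *ᵥ (r • x + s • (J *ᵥ x)) := by
      intro x
      have h1 := congrArg (fun A => (g : Matrix ι ι F) * A) hrs
      simp only [← mul_assoc, Units.mul_inv, one_mul] at h1
      have h2 := congrArg (fun A => A *ᵥ x) h1
      simp only [← Matrix.mulVec_mulVec, Matrix.add_mulVec, Matrix.smul_mulVec, Matrix.one_mulVec] at h2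
      exact h2
    have hJv : sform hf (J *ᵥ v) v = 0 := sform_comm_zero hf ((hS.iso_iff v).1 hv)
    have h1 := hgJ v
    simp only [g, tv_mulVec hf, map_add, map_smul, LinearMap.add_apply, LinearMap.smul_apply, sform_self hf, hJv,
      smul_zero, add_zero, mul_zero, zero_smul] at h1
    obtain ⟨hr, hs'⟩ := hK.indep hv0 (r := -r) (s := 1 - s) (by linear_combination (norm := module) h1)
    have h2 := hgJ y
    rw [show r = 0 from neg_eq_zero.1 hr, show s = 1 by linear_combination -hs'] at h2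
    simp only [g, tv_mulVec hf, zero_smul, zero_add, one_smul, Matrix.mulVec_add, one_mul, hy] at h2
    exact one_ne_zero (hK.indep hv0 (r := -(sform hf (J *ᵥ y) v)) (s := 1)
      (by linear_combination (norm := module) h2)).2
  by_cases hMP : M ≤ P
  · exact Or.inl (le_antisymm hMP hPM)
  refine Or.inr (le_antisymm hMG ?_)
  have hMI : ∀ g ∈ M, ∀ x y, f ((g : Matrix ι ι F) *ᵥ x) ((g : Matrix ι ι F) *ᵥ y) = f x y :=
    fun g hg => (hG g).1 (hMG hg)
  have hC : ∀ g : GL ι F, (∀ x y, f ((g : Matrix ι ι F) *ᵥ x) ((g : Matrix ι ι F) *ᵥ y) = f x y) →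
      (g : Matrix ι ι F) * J = J * (g : Matrix ι ι F) → g ∈ M := fun g hI hc =>
    hPM ((hP g).2 ⟨(hG g).2 hI, 0, 1, one_ne_zero, by
      rw [zero_smul, zero_add, one_smul, mul_assoc, ← hc, ← mul_assoc, Units.inv_mul, one_mul]⟩)
  obtain ⟨g, hgM, hgP⟩ := SetLike.not_le_iff_exists.1 hMP
  have hgI := hMI g hgM
  obtain ⟨v, hv, hvn⟩ : ∃ v, qJform f J v = 0 ∧ (g : Matrix ι ι F) *ᵥ (J *ᵥ v) ∉ kline J ((g : Matrix ι ι F) *ᵥ v) := by
    by_contra hc
    push Not at hc
    exact hgP ((hP g).2 ⟨hMG hgM, conj_J_eq hS hn hgI hc⟩)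
  have hgv0 : (g : Matrix ι ι F) *ᵥ v ≠ 0 := by
    intro h0
    have hv0 : v = 0 := by rw [← inv_mulVec_mulVec g v, h0, Matrix.mulVec_zero]
    refine hvn ?_
    simp [hv0]
  obtain ⟨w, hw, hwG⟩ := group_of_root hS hn hMI hC hst hs ht hgv0 hvn
    (by rw [sform_apply, hgI]; exact hv) fun r => by
      have hkT : kT hf J δ v r ∈ M := hC _ (kT_preserves v r) (hS.kT_commute hv r)
      have := M.mul_mem (M.mul_mem hgM hkT) (M.inv_mem hgM)
      rwa [kT, show g * (sympT hf (J *ᵥ v) r * sympT hf v (-(r * δ))) * g⁻¹ =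
        (g * sympT hf (J *ᵥ v) r * g⁻¹) * (g * sympT hf v (-(r * δ)) * g⁻¹) by group,
        conj_sympT hf hgI, conj_sympT hf hgI] at this
  exact fun x hx => mem_of_preserves hf M (all_of_group hS hn hMI hC hst ht hw hwG) x ((hG x).1 hx)

end CfsgLib.SpFour90.Overfield
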